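import Cfsg.Agent.Cuspidal.Lines

/-!
# Counting in finite modules killed by an irreducible polynomial
-/

set_option autoImplicit false
set_option linter.unusedSectionVars false
set_option linter.style.haveILetI false

namespace Cfsg.Agent.Cuspidal

open Polynomial Submodule

universe u

variable {F : Type*} [Field F] [Finite F]

theorem isLine_span {M : Type*} [AddCommGroup M] [Module F[X] M] {f : F[X]} {x : M} (hx : x ≠ 0)
    (hfx : f • x = 0) : IsLine f (F[X] ∙ x) := ⟨x, hx, hfx, rfl⟩

theorem card_hom_and_pow {f : F[X]} (hf : Irreducible f) (hfm : f.Monic) {N : Type*}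
    [AddCommGroup N] [Module F[X] N] [Finite N] {B : Submodule F[X] N} (hB : IsLine f B) :
    ∀ (n : ℕ) (A : Type u) [AddCommGroup A] [Module F[X] A] [Finite A], Nat.card A = n →
      (∀ a : A, f • a = 0) →
      Nat.card (A →ₗ[F[X]] B) = n ∧ ∃ k, n = (Nat.card F ^ f.natDegree) ^ k := by
  intro n
  induction n using Nat.strong_induction_on with
  | _ n ih =>
    intro A _ _ _ hn hA
    rcases subsingleton_or_nontrivial A with hs | hs
    · subst hn
      rw [Nat.card_of_subsingleton (0 : A)]
      refine ⟨?_, 0, (pow_zero _).symm⟩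
      haveI : Subsingleton (A →ₗ[F[X]] B) :=
        ⟨fun φ ψ => LinearMap.ext fun a => by rw [Subsingleton.elim a 0, map_zero, map_zero]⟩
      exact Nat.card_of_subsingleton 0
    obtain ⟨x, hx⟩ := exists_ne (0 : A)
    have hL := isLine_span (f := f) hx (hA x)
    obtain ⟨C, hC⟩ := hL.exists_isCompl hf
      ⟨x, mem_span_singleton_self x, fun y h => hx (h ▸ hA y)⟩
    have hcard : Nat.card A = Nat.card (F[X] ∙ x) * Nat.card C := by
      rw [← Nat.card_prod]
      exact Nat.card_congr (prodEquivOfIsCompl _ _ hC).symm.toEquiv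
    have hLc := hL.card_eq hf hfm
    have h1 : 1 < Nat.card (F[X] ∙ x) := by
      haveI : Nontrivial (F[X] ∙ x) :=
        ⟨⟨⟨x, mem_span_singleton_self x⟩, 0, fun h => hx (congrArg Subtype.val h)⟩⟩
      exact Finite.one_lt_card
    have hCpos : 0 < Nat.card C := Nat.card_pos
    have hlt : Nat.card C < n := by
      rw [← hn, hcard]
      exact lt_mul_of_one_lt_left hCpos h1
    obtain ⟨h2, k, hk⟩ := ih _ hlt C rfl fun a => Subtype.ext (hA a)
    refine ⟨?_, k + 1, by rw [← hn, hcard, hLc, hk, pow_succ, mul_comm]⟩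
    rw [Nat.card_congr ((LinearEquiv.congrLeft B F[X] (prodEquivOfIsCompl _ _ hC).symm).trans
      (LinearMap.coprodEquiv F[X]).symm).toEquiv, Nat.card_prod, h2,
      card_hom_line hL hf (fun b => Subtype.ext (hB.smul_eq_zero b.2)), ← hn, hcard, hLc,
      hB.card_eq hf hfm]

/-- The kernel of multiplication by `f`. -/
noncomputable abbrev ann (f : F[X]) (M : Type*) [AddCommGroup M] [Module F[X] M] : Submodule F[X] M :=
  torsionBy F[X] M f

variable {M : Type u} [AddCommGroup M] [Module F[X] M] [Finite M]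

theorem card_ann_mul (f : F[X]) :
    Nat.card (ann f M) * Nat.card (LinearMap.range (f • LinearMap.id : M →ₗ[F[X]] M)) =
      Nat.card M := by
  rw [mul_comm, card_eq_card_quotient_mul_card (ann f M), mul_comm]
  congr 1
  have : ann f M = LinearMap.ker (f • LinearMap.id : M →ₗ[F[X]] M) := by
    ext x; simp
  rw [this]
  exact (Nat.card_congr (LinearMap.quotKerEquivRange _).toEquiv).symm

theorem card_hom_ann {f : F[X]} (hf : Irreducible f) (hfm : f.Monic) {N : Type*}
    [AddCommGroup N] [Module F[X] N] [Finite N] {B : Submodule F[X] N} (hB : IsLine f B) :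
    Nat.card (M →ₗ[F[X]] B) = Nat.card (ann f M) := by
  let P := LinearMap.range (f • LinearMap.id : M →ₗ[F[X]] M)
  have hk : ∀ a : M ⧸ P, f • a = 0 := by
    intro a
    obtain ⟨m, rfl⟩ := Submodule.mkQ_surjective P a
    rw [← map_smul, mkQ_apply, Submodule.Quotient.mk_eq_zero]
    exact ⟨m, by simp⟩
  have e : (M →ₗ[F[X]] B) ≃ ((M ⧸ P) →ₗ[F[X]] B) :=
    { toFun := fun φ => P.liftQ φ (by
        rintro _ ⟨m, rfl⟩
        rw [LinearMap.mem_ker, LinearMap.smul_apply, LinearMap.id_apply, map_smul]
        exact Subtype.ext (hB.smul_eq_zero (φ m).2))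
      invFun := fun ψ => ψ.comp P.mkQ
      left_inv := fun φ => P.liftQ_mkQ φ _
      right_inv := fun ψ => linearMap_qext P (by rw [liftQ_mkQ]) }
  haveI : Finite (M ⧸ P) := Finite.of_surjective _ P.mkQ_surjective
  rw [Nat.card_congr e, (card_hom_and_pow hf hfm hB _ (M ⧸ P) rfl hk).1]
  have h := card_ann_mul (M := M) f
  have h' := card_eq_card_quotient_mul_card P
  change Nat.card (ann f M) * Nat.card P = _ at h
  exact (Nat.eq_of_mul_eq_mul_left (Nat.card_pos (α := P))
    (by linarith [h, h'])).symm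

theorem exists_card_ann_eq_pow {f : F[X]} (hf : Irreducible f) (hfm : f.Monic) :
    ∃ k, Nat.card (ann f M) = (Nat.card F ^ f.natDegree) ^ k := by
  rcases subsingleton_or_nontrivial (ann f M) with h | h
  · exact ⟨0, by rw [pow_zero]; exact Nat.card_of_subsingleton 0⟩
  obtain ⟨x, hx⟩ := exists_ne (0 : ann f M)
  have hk : ∀ a : ann f M, f • a = 0 := fun a => smul_torsionBy f a
  exact (card_hom_and_pow hf hfm (isLine_span (f := f) hx (hk x)) _ (ann f M) rfl hk).2

theorem card_ann_of_isCompl {f : F[X]} {L C : Submodule F[X] M} (hL : IsLine f L)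
    (hC : IsCompl L C) : Nat.card (ann f M) = Nat.card L * Nat.card (ann f C) := by
  let e := prodEquivOfIsCompl L C hC
  rw [← Nat.card_prod]
  refine (Nat.card_congr (α := L × ann f C) (β := ann f M)
    { toFun := fun p => ⟨e (p.1, (p.2 : C)), ?_⟩
      invFun := fun x => ((e.symm x).1, ⟨(e.symm x).2, ?_⟩)
      left_inv := fun p => by simp
      right_inv := fun x => by simp }).symm
  · rw [mem_torsionBy_iff, ← map_smul, ← map_zero e]
    refine congrArg e (Prod.ext (Subtype.ext (hL.smul_eq_zero p.1.2)) ?_)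
    exact (mem_torsionBy_iff f (p.2 : C)).1 p.2.2
  · have h := congrArg e.symm ((mem_torsionBy_iff f (x : M)).1 x.2)
    rw [map_smul, map_zero] at h
    exact (mem_torsionBy_iff f _).2 (congrArg Prod.snd h)

theorem card_ann_of_le {f : F[X]} {L : Submodule F[X] M}
    (h : ∀ x ∈ L, ∃ y : M, f • y = x) : Nat.card (ann f M) = Nat.card (ann f (M ⧸ L)) := by
  haveI : Finite (M ⧸ L) := Finite.of_surjective _ L.mkQ_surjective
  have h1 := card_ann_mul (M := M) f
  have h2 := card_ann_mul (M := M ⧸ L) f
  have h3 := card_eq_card_quotient_mul_card L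
  set P := LinearMap.range (f • LinearMap.id : M →ₗ[F[X]] M)
  set P' := LinearMap.range (f • LinearMap.id : (M ⧸ L) →ₗ[F[X]] (M ⧸ L))
  have hLP : L ≤ P := fun x hx => by obtain ⟨y, hy⟩ := h x hx; exact ⟨y, by simpa using hy⟩
  have hP : P' = P.map L.mkQ := by
    show P' = Submodule.map L.mkQ (LinearMap.range _)
    rw [← LinearMap.range_comp]
    refine le_antisymm ?_ ?_
    · rintro _ ⟨a, rfl⟩
      obtain ⟨m, rfl⟩ := L.mkQ_surjective a
      exact ⟨m, by simp⟩
    · rintro _ ⟨m, rfl⟩
      exact ⟨L.mkQ m, by simp⟩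
  have h4 : Nat.card P = Nat.card P' * Nat.card L := by
    let g : P →ₗ[F[X]] P' := LinearMap.codRestrict P' (L.mkQ.comp P.subtype) fun p => by
      rw [hP]; exact mem_map_of_mem p.2
    have hg : Function.Surjective g := by
      rintro ⟨a, ha⟩
      rw [hP] at ha
      obtain ⟨p, hp, rfl⟩ := ha
      exact ⟨⟨p, hp⟩, rfl⟩
    rw [card_eq_card_quotient_mul_card (LinearMap.ker g),
      Nat.card_congr (LinearMap.quotKerEquivOfSurjective g hg).toEquiv, mul_comm]
    congr 1
    refine Nat.card_congr
      { toFun := fun p => ⟨((p : P) : M), by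
          have := congrArg Subtype.val (LinearMap.mem_ker.1 p.2)
          exact (Submodule.Quotient.mk_eq_zero L).1 this⟩
        invFun := fun l => ⟨⟨l, hLP l.2⟩, LinearMap.mem_ker.2 (Subtype.ext (by simp [g]))⟩
        left_inv := fun p => rfl
        right_inv := fun l => rfl }
  have hP0 : 0 < Nat.card P' * Nat.card L := Nat.mul_pos Nat.card_pos Nat.card_pos
  refine Nat.eq_of_mul_eq_mul_right hP0 ?_
  rw [← h4, h1, h4, ← mul_assoc, h2, h3, mul_comm]

end Cfsg.Agent.Cuspidal
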