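import Cfsg.Agent.Cuspidal.Identity

/-!
# Weights of endomorphisms and their cuspidality
-/

set_option autoImplicit false
set_option linter.unusedSectionVars false
set_option linter.style.haveILetI false

noncomputable section

namespace Cfsg.Agent.Cuspidal

open Polynomial Submodule

universe u

variable {F : Type*} [Field F] [Finite F]

/-- The weight is additive on products of monic polynomials. -/
def IsAdditive (w : F[X] → ℂ) : Prop :=
  ∀ P Q : F[X], P.Monic → Q.Monic → w (P * Q) = w P + w Q

section

variable {V : Type u} [AddCommGroup V] [Module F V] [Finite V]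

instance finite_aeval' (g : Module.End F V) : Finite (Module.AEval' g) :=
  Finite.of_equiv V (Module.AEval'.of g).toEquiv

/-- The weight of an endomorphism. -/
def ev (w : F[X] → ℂ) (g : Module.End F V) : ℂ := econt w (Module.AEval' g)

open Classical in
/-- The weight of the restriction to a subspace, zero unless it is invariant. -/
def evOn (w : F[X] → ℂ) (g : Module.End F V) (W : Submodule F V) : ℂ :=
  if h : W ≤ W.comap g then ev w (g.restrict h) else 0

/-- An intertwining isomorphism, as an isomorphism of modules over the polynomial ring. -/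
def aevalEquiv {V' : Type*} [AddCommGroup V'] [Module F V'] {g : Module.End F V}
    {g' : Module.End F V'} (e : V ≃ₗ[F] V') (h : ∀ x, e (g x) = g' (e x)) :
    Module.AEval' g ≃ₗ[F[X]] Module.AEval' g' :=
  LinearEquiv.ofAEval g (e.trans (Module.AEval'.of g'))
    fun m => by
      show Module.AEval'.of g' (e (g • m)) = X • Module.AEval'.of g' (e m)
      rw [Module.AEval'.X_smul_of]
      exact congrArg _ (h m)

theorem ev_conj {V' : Type*} [AddCommGroup V'] [Module F V'] [Finite V'] (w : F[X] → ℂ)
    {g : Module.End F V} {g' : Module.End F V'} (e : V ≃ₗ[F] V') (h : ∀ x, e (g x) = g' (e x)) :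
    ev w g = ev w g' := econt_congr (aevalEquiv e h) w

theorem evOn_top (w : F[X] → ℂ) (g : Module.End F V) : evOn w g ⊤ = ev w g := by
  rw [evOn, dif_pos (show (⊤ : Submodule F V) ≤ (⊤ : Submodule F V).comap g by simp)]
  exact ev_conj w topEquiv fun x => rfl

theorem evOn_bot (w : F[X] → ℂ) (g : Module.End F V) : evOn w g ⊥ = 0 := by
  rw [evOn, dif_pos (show (⊥ : Submodule F V) ≤ (⊥ : Submodule F V).comap g from bot_le)]
  haveI : Subsingleton (⊥ : Submodule F V) := inferInstance
  haveI : Subsingleton (Module.AEval' (g.restrict (show (⊥ : Submodule F V) ≤ (⊥ : Submodule F V).comap g from bot_le))) :=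
    (Module.AEval'.of _).symm.toEquiv.subsingleton
  exact econt_subsingleton w

theorem charR_aeval (g : Module.End F V) : charR F (Module.AEval' g) = g.charpoly := by
  rw [charR, ← LinearEquiv.charpoly_conj (Module.AEval'.of g) g]
  congr 1
  refine LinearMap.ext fun m => ?_
  obtain ⟨x, rfl⟩ := (Module.AEval'.of g).surjective m
  show (X : F[X]) • Module.AEval'.of g x = _
  rw [Module.AEval'.X_smul_of]
  simp [LinearEquiv.conj_apply]

/-- The identity for endomorphisms. -/
theorem sum_evOn {w : F[X] → ℂ} (hw : IsAdditive w) (g : Module.End F V)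
    [Fintype (Submodule F V)] : ∑ W : Submodule F V, evOn w g W = w g.charpoly := by
  classical
  letI := Fintype.ofFinite (Submodule F[X] (Module.AEval' g))
  rw [← charR_aeval g, ← sum_econt (Module.AEval' g) w hw]
  let ms := Module.AEval.mapSubmodule F V g
  rw [← Finset.sum_subset (Finset.subset_univ
    (Finset.univ.filter fun W : Submodule F V => W ≤ W.comap g)) (fun W _ hW => by
      rw [evOn, dif_neg (fun h => hW (Finset.mem_filter.2 ⟨Finset.mem_univ _, h⟩))])]
  refine Finset.sum_bij (fun W hW => ms ⟨W, (Finset.mem_filter.1 hW).2⟩)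
    (fun W _ => Finset.mem_univ _) (fun W _ W' _ h => congrArg Subtype.val (ms.injective h))
    (fun q _ => ⟨(ms.symm q).1, Finset.mem_filter.2 ⟨Finset.mem_univ _, (ms.symm q).2⟩, ms.apply_symm_apply q⟩)
    fun W hW => ?_
  rw [evOn, dif_pos (Finset.mem_filter.1 hW).2, ev]
  exact econt_congr (Module.AEval.restrict_equiv_mapSubmodule g W (Finset.mem_filter.1 hW).2) w

theorem sum_evOn_le {w : F[X] → ℂ} (hw : IsAdditive w) (g : Module.End F V) (W : Submodule F V)
    (hW : W ≤ W.comap g) [Fintype (Submodule F V)] [DecidablePred fun W' : Submodule F V => W' ≤ W] :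
    ∑ W' ∈ Finset.univ.filter (fun W' : Submodule F V => W' ≤ W), evOn w g W' =
      w (g.restrict hW).charpoly := by
  classical
  letI := Fintype.ofFinite (Submodule F W)
  rw [← sum_evOn hw (g.restrict hW)]
  refine (Finset.sum_bij (fun W' _ => W'.map W.subtype)
    (fun W' _ => Finset.mem_filter.2 ⟨Finset.mem_univ _, map_subtype_le W W'⟩)
    (fun _ _ _ _ h => map_injective_of_injective W.injective_subtype h)
    (fun W' hW' => ⟨W'.comap W.subtype, Finset.mem_univ _, by
      rw [map_comap_subtype, inf_eq_right.2 (Finset.mem_filter.1 hW').2]⟩) fun W' _ => ?_).symm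
  by_cases h : W' ≤ W'.comap (g.restrict hW)
  · have h2 : W'.map W.subtype ≤ (W'.map W.subtype).comap g := by
      rintro _ ⟨x, hx, rfl⟩
      exact ⟨g.restrict hW x, h hx, rfl⟩
    rw [evOn, dif_pos h, evOn, dif_pos h2]
    exact ev_conj w (equivSubtypeMap W W') fun x => Subtype.ext rfl
  · rw [evOn, dif_neg h, evOn, dif_neg]
    intro h2
    apply h
    intro x hx
    obtain ⟨y, hy, hxy⟩ := h2 (mem_map_of_mem (f := W.subtype) hx)
    have : y = g.restrict hW x := Subtype.ext hxy
    rwa [this] at hy

/-- The lift of `g` twisted by `u`. -/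
def twist (g : Module.End F V) (W : Submodule F V) (u : (V ⧸ W) →ₗ[F] W) : Module.End F V :=
  g + W.subtype.comp (u.comp W.mkQ)

theorem twist_apply (g : Module.End F V) (W : Submodule F V) (u : (V ⧸ W) →ₗ[F] W) (x : V) :
    twist g W u x = g x + (u (W.mkQ x) : V) := rfl

theorem twist_of_mem (g : Module.End F V) (W : Submodule F V) (u : (V ⧸ W) →ₗ[F] W) {x : V}
    (hx : x ∈ W) : twist g W u x = g x := by
  rw [twist_apply, mkQ_apply, (Submodule.Quotient.mk_eq_zero W).2 hx, map_zero, ZeroMemClass.coe_zero,
    add_zero]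

theorem mkQ_twist (g : Module.End F V) (W : Submodule F V) (u : (V ⧸ W) →ₗ[F] W) (x : V) :
    W.mkQ (twist g W u x) = W.mkQ (g x) := by
  rw [twist_apply, map_add, mkQ_apply, mkQ_apply, (Submodule.Quotient.mk_eq_zero W).2 (u _).2,
    add_zero]

theorem le_comap_twist {g : Module.End F V} {W : Submodule F V} (hW : W ≤ W.comap g)
    (u : (V ⧸ W) →ₗ[F] W) : W ≤ W.comap (twist g W u) := fun x hx => by
  rw [mem_comap, twist_of_mem g W u hx]; exact hW hx

theorem charpoly_twist {g : Module.End F V} {W : Submodule F V} (hW : W ≤ W.comap g)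
    (u : (V ⧸ W) →ₗ[F] W) :
    (twist g W u).charpoly = (g.restrict hW).charpoly * (W.mapQ W g hW).charpoly := by
  rw [charpoly_eq_mul W (twist g W u) (le_comap_twist hW u)]
  congr 2
  · exact LinearMap.ext fun x => Subtype.ext (twist_of_mem g W u x.2)
  · refine linearMap_qext W (LinearMap.ext fun x => ?_)
    exact mkQ_twist g W u x

end

/-- The sums over lifts vanish. -/
theorem sum_ev_twist {w : F[X] → ℂ} (hw : IsAdditive w) :
    ∀ (n : ℕ) (V : Type u) [AddCommGroup V] [Module F V] [Finite V] (g : Module.End F V)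
      (W : Submodule F V) [Fintype ((V ⧸ W) →ₗ[F] W)], Nat.card V = n → W ≤ W.comap g →
      W ≠ ⊥ → W ≠ ⊤ → ∑ u : (V ⧸ W) →ₗ[F] W, ev w (twist g W u) = 0 := by
  intro n
  induction n using Nat.strong_induction_on with
  | _ n ih =>
  intro V _ _ _ g W _ hn hW hW0 hW1
  classical
  letI := Fintype.ofFinite (Submodule F V)
  haveI : Finite (V ⧸ W) := Finite.of_surjective _ W.mkQ_surjective
  letI := Fintype.ofFinite (Submodule F (V ⧸ W))
  set U : ℂ := (Fintype.card ((V ⧸ W) →ₗ[F] W) : ℂ) with hU
  set cW := w (g.restrict hW).charpoly with hcW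
  set cQ := w (W.mapQ W g hW).charpoly with hcQ
  have htot : ∑ W' : Submodule F V, ∑ u : (V ⧸ W) →ₗ[F] W, evOn w (twist g W u) W' =
      U * cW + U * cQ := by
    rw [Finset.sum_comm, Finset.sum_congr rfl (g := fun _ => cW + cQ) fun u _ => by
      rw [sum_evOn hw, charpoly_twist hW, hw _ _ (LinearMap.charpoly_monic _)
        (LinearMap.charpoly_monic _)]]
    rw [Finset.sum_const, Finset.card_univ, nsmul_eq_mul, mul_add]
  -- subspaces inside `W`
  have hle : ∑ W' ∈ Finset.univ.filter (fun W' : Submodule F V => W' ≤ W),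
      ∑ u : (V ⧸ W) →ₗ[F] W, evOn w (twist g W u) W' = U * cW := by
    rw [hcW, ← sum_evOn_le hw g W hW, Finset.mul_sum]
    refine Finset.sum_congr rfl fun W' hW' => ?_
    have h0 := (Finset.mem_filter.1 hW').2
    rw [Finset.sum_congr rfl (g := fun _ => evOn w g W') fun u _ => ?_, Finset.sum_const,
      Finset.card_univ, nsmul_eq_mul]
    have hiff : W' ≤ W'.comap (twist g W u) ↔ W' ≤ W'.comap g :=
      forall₂_congr fun x hx => by rw [mem_comap, mem_comap, twist_of_mem g W u (h0 hx)]
    by_cases h : W' ≤ W'.comap g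
    · rw [evOn, evOn, dif_pos h, dif_pos (hiff.2 h)]
      congr 1
      exact LinearMap.ext fun x => Subtype.ext (twist_of_mem g W u (h0 x.2))
    · rw [evOn, evOn, dif_neg h, dif_neg (hiff.not.2 h)]
  -- subspaces meeting `W` trivially
  let gQ : Module.End F (V ⧸ W) := W.mapQ W g hW
  have hdisj : ∑ W' ∈ Finset.univ.filter (fun W' : Submodule F V => ¬ W' ≤ W ∧ W' ⊓ W = ⊥),
      ∑ u : (V ⧸ W) →ₗ[F] W, evOn w (twist g W u) W' = U * cQ := by
    rw [hcQ, ← sum_evOn hw gQ,
      ← Finset.sum_erase_add _ _ (Finset.mem_univ (⊥ : Submodule F (V ⧸ W))), evOn_bot, add_zero,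
      Finset.mul_sum]
    rw [← Finset.sum_fiberwise_of_maps_to (g := fun W' : Submodule F V => W'.map W.mkQ)
      (t := (Finset.univ : Finset (Submodule F (V ⧸ W))).erase ⊥) (fun W' hW' => by
        refine Finset.mem_erase.2 ⟨fun h => (Finset.mem_filter.1 hW').2.1 fun x hx => ?_,
          Finset.mem_univ _⟩
        rw [← Submodule.Quotient.mk_eq_zero W, ← mkQ_apply]
        exact (mem_bot F).1 (h ▸ mem_map_of_mem hx))]
    refine Finset.sum_congr rfl fun B hB => ?_
    have hB0 : B ≠ ⊥ := (Finset.mem_erase.1 hB).1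
    obtain ⟨π, hπ⟩ := LinearMap.exists_leftInverse_of_injective B.subtype (ker_subtype B)
    obtain ⟨σ, hσ⟩ := LinearMap.exists_rightInverse_of_surjective W.mkQ (range_mkQ W)
    have hσ' : ∀ b : V ⧸ W, W.mkQ (σ b) = b := fun b => LinearMap.congr_fun hσ b
    have hπ' : ∀ b : B, π b = b := fun b => LinearMap.congr_fun hπ b
    let sec : (B →ₗ[F] W) → (B →ₗ[F] V) := fun φ => σ.comp B.subtype + W.subtype.comp φ
    have hsec : ∀ φ b, W.mkQ (sec φ b) = b := fun φ b => by
      simp only [sec, LinearMap.add_apply, LinearMap.comp_apply, subtype_apply, map_add, hσ']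
      rw [mkQ_apply _ (φ b : V), (Submodule.Quotient.mk_eq_zero W).2 (φ b).2, add_zero]
    have hsec_inj : ∀ φ, Function.Injective (sec φ) := fun φ b b' h =>
      Subtype.ext (by rw [← hsec φ b, ← hsec φ b', h])
    have hfib : Finset.filter (fun W' : Submodule F V => W'.map W.mkQ = B)
        (Finset.univ.filter fun W' : Submodule F V => ¬ W' ≤ W ∧ W' ⊓ W = ⊥) =
        (Finset.univ : Finset (Submodule F V)).filter
          (fun W' => ∃ φ : B →ₗ[F] W, LinearMap.range (sec φ) = W') := by
      ext W'
      simp only [Finset.mem_filter, Finset.mem_univ, true_and]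
      constructor
      · rintro ⟨⟨-, hd⟩, hmap⟩
        have hinj : Function.Injective (W.mkQ.comp W'.subtype) := by
          rw [← LinearMap.ker_eq_bot, eq_bot_iff]
          intro x hx
          have hxW : (x : V) ∈ W := (Submodule.Quotient.mk_eq_zero W).1 (LinearMap.mem_ker.1 hx)
          have h0 : (x : V) ∈ W' ⊓ W := ⟨x.2, hxW⟩
          rw [hd, mem_bot] at h0
          exact (mem_bot F).2 (Subtype.ext h0)
        have hex : ∀ b : B, ∃ x : W', W.mkQ x = b := fun b => by
          have : (b : V ⧸ W) ∈ W'.map W.mkQ := hmap ▸ b.2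
          obtain ⟨x, hx, hxb⟩ := this
          exact ⟨⟨x, hx⟩, hxb⟩
        choose c hc using hex
        let cl : B →ₗ[F] W' :=
          { toFun := c
            map_add' := fun a b => hinj (by
              simp only [LinearMap.comp_apply, subtype_apply, hc, Submodule.coe_add, map_add])
            map_smul' := fun r a => hinj (by
              simp only [LinearMap.comp_apply, subtype_apply, hc, RingHom.id_apply,
                Submodule.coe_smul, map_smul]) }
        refine ⟨LinearMap.codRestrict W (W'.subtype.comp cl - σ.comp B.subtype) fun b => ?_, ?_⟩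
        · rw [← Submodule.Quotient.mk_eq_zero W, ← mkQ_apply]
          simp only [LinearMap.sub_apply, LinearMap.comp_apply, subtype_apply, map_sub, hσ']
          show W.mkQ (c b : V) - _ = 0
          rw [hc, sub_self]
        · refine le_antisymm ?_ ?_
          · rintro _ ⟨b, rfl⟩
            simp only [sec, LinearMap.add_apply, LinearMap.comp_apply, subtype_apply,
              LinearMap.codRestrict_apply, LinearMap.sub_apply, add_sub_cancel]
            exact (c b).2
          · intro x hx
            refine ⟨⟨W.mkQ x, hmap ▸ mem_map_of_mem hx⟩, ?_⟩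
            simp only [sec, LinearMap.add_apply, LinearMap.comp_apply, subtype_apply,
              LinearMap.codRestrict_apply, LinearMap.sub_apply, add_sub_cancel]
            exact congrArg Subtype.val (show c ⟨W.mkQ x, hmap ▸ mem_map_of_mem hx⟩ = (⟨x, hx⟩ : W') from
              hinj (hc ⟨W.mkQ x, hmap ▸ mem_map_of_mem hx⟩))
      · rintro ⟨φ, rfl⟩
        refine ⟨⟨fun hle => hB0 (eq_bot_iff.2 fun b hb => ?_), eq_bot_iff.2 ?_⟩, ?_⟩
        · exact (mem_bot F).2 ((hsec φ ⟨b, hb⟩).symm.trans
            ((Submodule.Quotient.mk_eq_zero W).2 (hle ⟨⟨b, hb⟩, rfl⟩)))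
        · rintro x ⟨⟨b, rfl⟩, hx⟩
          have : b = 0 := Subtype.ext (by
            rw [← hsec φ b, mkQ_apply, (Submodule.Quotient.mk_eq_zero W).2 hx]; rfl)
          rw [this, map_zero]; exact zero_mem _
        · ext b
          constructor
          · rintro ⟨_, ⟨c, rfl⟩, rfl⟩; rw [hsec]; exact c.2
          · intro hb; exact ⟨_, ⟨⟨b, hb⟩, rfl⟩, hsec φ ⟨b, hb⟩⟩
    rw [hfib, show (Finset.univ.filter fun W' : Submodule F V =>
        ∃ φ : B →ₗ[F] W, LinearMap.range (sec φ) = W') =
      (Set.range fun φ : B →ₗ[F] W => LinearMap.range (sec φ)).toFinset from by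
        ext; simp]
    haveI : Finite (B →ₗ[F] W) := Finite.of_injective _ DFunLike.coe_injective
    letI := Fintype.ofFinite (B →ₗ[F] W)
    have hrange_inj : Function.Injective fun φ : B →ₗ[F] W => LinearMap.range (sec φ) := by
      intro φ ψ h
      refine LinearMap.ext fun b => Subtype.ext ?_
      have h' : LinearMap.range (sec φ) = LinearMap.range (sec ψ) := h
      obtain ⟨c, hc⟩ : sec φ b ∈ LinearMap.range (sec ψ) := by rw [← h']; exact ⟨b, rfl⟩
      have : c = b := Subtype.ext (by rw [← hsec ψ c, hc, hsec])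
      subst this
      simp only [sec, LinearMap.add_apply, LinearMap.comp_apply, subtype_apply] at hc
      exact (add_left_cancel hc).symm
    rw [Set.toFinset_range, Finset.sum_image hrange_inj.injOn, ← Finset.sum_product']
    by_cases hBinv : B ≤ B.comap gQ
    · let gB : B →ₗ[F] B := gQ.restrict hBinv
      have hd : ∀ (φ : B →ₗ[F] W) (b : B), sec φ (gB b) - g (sec φ b) ∈ W := by
        intro φ b
        rw [← Submodule.Quotient.mk_eq_zero W, ← mkQ_apply, map_sub, hsec, sub_eq_zero]
        show gQ (b : V ⧸ W) = _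
        rw [← hsec φ b]
        rfl
      let cφ : (B →ₗ[F] W) → (B →ₗ[F] W) := fun φ =>
        LinearMap.codRestrict W ((sec φ).comp gB - g.comp (sec φ)) fun b => hd φ b
      have hinv : ∀ (φ : B →ₗ[F] W) (u : (V ⧸ W) →ₗ[F] W),
          LinearMap.range (sec φ) ≤ (LinearMap.range (sec φ)).comap (twist g W u) ↔
            u.comp B.subtype = cφ φ := by
        intro φ u
        constructor
        · intro h
          refine LinearMap.ext fun b => Subtype.ext ?_
          obtain ⟨c, hc⟩ := h ⟨b, rfl⟩
          have hcb : c = gB b := Subtype.ext (by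
            rw [← hsec φ c, hc, mkQ_twist]
            show _ = gQ (b : V ⧸ W)
            rw [← hsec φ b]; rfl)
          subst hcb
          rw [twist_apply, hsec] at hc
          simp only [cφ, LinearMap.comp_apply, subtype_apply, LinearMap.codRestrict_apply,
            LinearMap.sub_apply, hc]
          abel
        · rintro h _ ⟨b, rfl⟩
          refine ⟨gB b, ?_⟩
          have h' := congrArg Subtype.val (LinearMap.congr_fun h b)
          simp only [cφ, LinearMap.comp_apply, subtype_apply, LinearMap.codRestrict_apply,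
            LinearMap.sub_apply] at h'
          rw [twist_apply, hsec, h']
          abel
      have hval : ∀ (φ : B →ₗ[F] W) (u : (V ⧸ W) →ₗ[F] W), u.comp B.subtype = cφ φ →
          evOn w (twist g W u) (LinearMap.range (sec φ)) = evOn w gQ B := by
        intro φ u h
        rw [evOn, dif_pos ((hinv φ u).2 h), evOn, dif_pos hBinv]
        refine (ev_conj w (LinearEquiv.ofInjective (sec φ) (hsec_inj φ)) fun b => ?_).symm
        apply Subtype.ext
        show sec φ (gB b) = twist g W u (sec φ b)
        have h' := congrArg Subtype.val (LinearMap.congr_fun h b)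
        simp only [cφ, LinearMap.comp_apply, subtype_apply, LinearMap.codRestrict_apply,
          LinearMap.sub_apply] at h'
        rw [twist_apply, hsec, h']
        abel
      rw [← Finset.sum_filter_of_ne
        (p := fun p : (B →ₗ[F] W) × ((V ⧸ W) →ₗ[F] W) => p.2.comp B.subtype = cφ p.1)
        (fun p _ hp => (hinv p.1 p.2).1 (by
          by_contra hn
          exact hp (by rw [evOn, dif_neg hn]))),
        Finset.sum_congr rfl fun p hp => hval p.1 p.2 (Finset.mem_filter.1 hp).2,
        Finset.sum_const, nsmul_eq_mul]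
      congr 1
      rw [hU, Nat.cast_inj, ← Finset.card_univ (α := (V ⧸ W) →ₗ[F] W)]
      refine Finset.card_bij'
        (fun p _ => p.2 - (cφ p.1).comp π + p.1.comp π)
        (fun z _ => (z.comp B.subtype,
          z - (z.comp B.subtype).comp π + (cφ (z.comp B.subtype)).comp π))
        (fun p _ => Finset.mem_univ _) (fun z _ => ?_) (fun p hp => ?_) (fun z _ => ?_)
      · refine Finset.mem_filter.2 ⟨Finset.mem_product.2 ⟨Finset.mem_univ _, Finset.mem_univ _⟩, ?_⟩
        refine LinearMap.ext fun b => ?_
        simp [hπ']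
      · have h := (Finset.mem_filter.1 hp).2
        have h1 : (p.2 - (cφ p.1).comp π + p.1.comp π).comp B.subtype = p.1 := by
          refine LinearMap.ext fun b => ?_
          have := LinearMap.congr_fun h b
          simp only [LinearMap.comp_apply, subtype_apply] at this
          simp [hπ', this]
        refine Prod.ext h1 ?_
        simp only [h1]
        abel
      · simp only
        abel
    · rw [evOn, dif_neg hBinv, mul_zero]
      refine Finset.sum_eq_zero fun p _ => ?_
      rw [evOn, dif_neg]
      intro h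
      apply hBinv
      intro b hb
      obtain ⟨c, hc⟩ := h ⟨⟨b, hb⟩, rfl⟩
      have h2 : gQ b = (c : V ⧸ W) := by
        rw [← hsec p.1 c, hc, mkQ_twist]
        show _ = W.mkQ (g _)
        exact (congrArg gQ (hsec p.1 ⟨b, hb⟩).symm).trans rfl
      rw [mem_comap, h2]; exact c.2
  -- the remaining proper subspaces
  have hrest : ∀ W' : Submodule F V, ¬ W' ≤ W → W' ⊓ W ≠ ⊥ → W' ≠ ⊤ →
      ∑ u : (V ⧸ W) →ₗ[F] W, evOn w (twist g W u) W' = 0 := by
    intro W' hnle hne hW'
    set A := W.comap W'.subtype with hA
    haveI : Finite (W' ⧸ A) := Finite.of_surjective _ A.mkQ_surjective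
    haveI : Finite ((W' ⧸ A) →ₗ[F] A) := Finite.of_injective _ DFunLike.coe_injective
    letI := Fintype.ofFinite ((W' ⧸ A) →ₗ[F] A)
    have hA0 : A ≠ ⊥ := fun h => hne (eq_bot_iff.2 fun x hx => by
      have : (⟨x, hx.1⟩ : W') ∈ A := hx.2
      rw [h, mem_bot] at this
      exact (mem_bot F).2 (congrArg Subtype.val this))
    have hA1 : A ≠ ⊤ := fun h => hnle fun x hx => by
      have : (⟨x, hx⟩ : W') ∈ A := h ▸ mem_top
      exact this
    let k : (W' ⧸ A) →ₗ[F] (V ⧸ W) := A.liftQ (W.mkQ.comp W'.subtype) fun x hx => by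
      rw [LinearMap.mem_ker, LinearMap.comp_apply, subtype_apply, mkQ_apply,
        Submodule.Quotient.mk_eq_zero]
      exact hx
    obtain ⟨π, hπ⟩ := LinearMap.exists_leftInverse_of_injective k (by
      rw [eq_bot_iff]
      intro y hy
      obtain ⟨x, rfl⟩ := A.mkQ_surjective y
      rw [mem_bot, mkQ_apply, Submodule.Quotient.mk_eq_zero]
      exact (Submodule.Quotient.mk_eq_zero W).1 (LinearMap.mem_ker.1 hy))
    let inc : A →ₗ[F] W := (W'.subtype.comp A.subtype).codRestrict W fun a => a.2
    let ext' : ((W' ⧸ A) →ₗ[F] A) → ((V ⧸ W) →ₗ[F] W) := fun u' => inc.comp (u'.comp π)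
    have hext : ∀ (u' : (W' ⧸ A) →ₗ[F] A) (x : W'),
        ((ext' u' (W.mkQ x)) : V) = ((u' (A.mkQ x) : A) : W') := fun u' x => by
      have h : π (k (A.mkQ x)) = A.mkQ x := LinearMap.congr_fun hπ _
      show (((u' (π (W.mkQ x))) : A) : V) = _
      rw [show W.mkQ (x : V) = k (A.mkQ x) from rfl, h]
    have hF : ∀ u : (V ⧸ W) →ₗ[F] W,
        ∑ u' : (W' ⧸ A) →ₗ[F] A, evOn w (twist g W (u + ext' u')) W' = 0 := by
      intro u
      have htw : ∀ (u' : (W' ⧸ A) →ₗ[F] A) (x : W'),
          twist g W (u + ext' u') x = twist g W u x + ((u' (A.mkQ x) : A) : W') := fun u' x => by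
        rw [twist_apply, twist_apply, LinearMap.add_apply, Submodule.coe_add, hext, add_assoc]
      by_cases h : W' ≤ W'.comap (twist g W u)
      · have h' : ∀ u', W' ≤ W'.comap (twist g W (u + ext' u')) := fun u' x hx => by
          rw [mem_comap, htw u' ⟨x, hx⟩]
          exact W'.add_mem (h hx) (Subtype.prop _)
        have hval : ∀ u', evOn w (twist g W (u + ext' u')) W' =
            ev w (twist ((twist g W u).restrict h) A u') := fun u' => by
          rw [evOn, dif_pos (h' u')]
          congr 1
          exact LinearMap.ext fun x => Subtype.ext (by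
            rw [twist_apply, Submodule.coe_add]; exact htw u' x)
        rw [Finset.sum_congr rfl fun u' _ => hval u']
        refine ih _ ?_ W' _ A rfl (fun x hx => ?_) hA0 hA1
        · rw [← hn]
          rw [card_eq_card_quotient_mul_card W']
          haveI : Nontrivial (V ⧸ W') := Submodule.Quotient.nontrivial_iff.2 hW'
          haveI : Finite (V ⧸ W') := Finite.of_surjective _ W'.mkQ_surjective
          exact lt_mul_of_one_lt_right Nat.card_pos Finite.one_lt_card
        · show ((twist g W u) x : V) ∈ W
          rw [twist_of_mem g W u (show (x : V) ∈ W from hx)]; exact hW hx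
      · refine Finset.sum_eq_zero fun u' _ => ?_
        rw [evOn, dif_neg]
        intro h'
        apply h
        intro x hx
        have := h' hx
        rw [mem_comap, htw u' ⟨x, hx⟩] at this
        simpa using W'.sub_mem this ((u' (A.mkQ ⟨x, hx⟩) : A) : W').2
    have h2 : ∑ u' : (W' ⧸ A) →ₗ[F] A, ∑ u : (V ⧸ W) →ₗ[F] W,
        evOn w (twist g W (u + ext' u')) W' = 0 := by
      rw [Finset.sum_comm]; exact Finset.sum_eq_zero fun u _ => hF u
    rw [Finset.sum_congr rfl (g := fun _ => ∑ u : (V ⧸ W) →ₗ[F] W, evOn w (twist g W u) W')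
      fun u' _ => Fintype.sum_equiv (Equiv.addRight (ext' u'))
        (fun u => evOn w (twist g W (u + ext' u')) W') (fun u => evOn w (twist g W u) W')
        fun u => rfl] at h2
    rw [Finset.sum_const, nsmul_eq_mul, mul_eq_zero] at h2
    exact h2.resolve_left (Nat.cast_ne_zero.2 Fintype.card_ne_zero)
  -- combine
  rw [← Finset.sum_filter_add_sum_filter_not Finset.univ (fun W' : Submodule F V => W' ≤ W),
    hle, add_right_inj,
    ← Finset.sum_filter_add_sum_filter_not (Finset.univ.filter fun W' : Submodule F V => ¬ W' ≤ W)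
      (fun W' : Submodule F V => W' ⊓ W = ⊥), Finset.filter_filter, hdisj, add_eq_left,
    Finset.filter_filter, Finset.sum_eq_single (⊤ : Submodule F V)
      (fun W' hW' h => hrest W' (Finset.mem_filter.1 hW').2.1 (Finset.mem_filter.1 hW').2.2 h)
      (fun h => absurd (Finset.mem_filter.2 ⟨Finset.mem_univ _,
        fun hle' => hW1 (eq_top_iff.2 hle'), by rwa [top_inf_eq]⟩) h)] at htot
  simpa only [evOn_top] using htot

end Cfsg.Agent.Cuspidal
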