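import Cfsg.Agent.Cuspidal.Norm

/-!
# The cuspidal family of the general linear group
-/

set_option autoImplicit false
set_option linter.unusedSectionVars false
set_option linter.style.haveILetI false

noncomputable section

namespace Cfsg.Agent.Cuspidal

open Polynomial Submodule
open scoped ComplexConjugate

variable {F : Type*} [Field F] [Finite F] {K : Type*} [Field K] [Finite K] [Algebra F K]

theorem orbSum_pow (θ : K →* ℂ) (j n : ℕ) (ξ : K) (k : ℕ) :
    orbSum F ((powMonoidHom j).comp θ) n (ξ ^ k) =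
      ∑ i ∈ Finset.range n, ((θ ξ) ^ (j * Nat.card F ^ i)) ^ k := by
  refine Finset.sum_congr rfl fun i _ => ?_
  show (θ ((ξ ^ k) ^ Nat.card F ^ i)) ^ j = _
  rw [map_pow, map_pow, ← pow_mul, ← pow_mul, ← pow_mul]
  congr 1
  ring

/-- Equal weights force exponents in the same Frobenius orbit. -/
theorem exists_frob_of_ev_eq {V : Type*} [AddCommGroup V] [Module F V] [Finite V] (θ : K →* ℂ)
    (hθ : Function.Injective θ) {n : ℕ} (hn : n ≠ 0) (hV : Module.finrank F V = n) {ξ : K}
    (hξ : IsPrimitiveRoot ξ (Nat.card F ^ n - 1)) {a b : ℕ}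
    (h : ∀ g : Aut F V, ev (liftW ((powMonoidHom a).comp θ)) (g : Module.End F V) =
      ev (liftW ((powMonoidHom b).comp θ)) (g : Module.End F V)) :
    ∃ i < n, b * Nat.card F ^ i % (Nat.card F ^ n - 1) = a % (Nat.card F ^ n - 1) := by
  haveI : Nontrivial V := Module.nontrivial_of_finrank_pos (R := F) (by omega)
  obtain ⟨v, hv⟩ := exists_ne (0 : V)
  set q := Nat.card F with hq
  set M := q ^ n - 1 with hM
  have hq1 : 1 < q := Finite.one_lt_card
  have hMpos : 0 < M := by have := Nat.one_lt_pow hn hq1; omega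
  have hdiv : ∀ k : ℕ, (ξ ^ k) ^ q ^ n = ξ ^ k := fun k => by
    rw [← pow_mul, mul_comm, pow_mul]
    congr 1
    rw [← Nat.sub_add_cancel (Nat.one_le_pow n q Nat.card_pos), pow_succ, ← hM, hξ.pow_eq_one,
      one_mul]
  have horb : ∀ k : ℕ, orbSum F ((powMonoidHom a).comp θ) n (ξ ^ k) =
      orbSum F ((powMonoidHom b).comp θ) n (ξ ^ k) := by
    intro k
    have hint := isIntegral_fin (F := F) (ξ ^ k)
    have hdn := natDegree_dvd_of_pow_eq (hdiv k)
    obtain ⟨g, hg, hP⟩ := exists_cyclic hv (P := orbPoly F n (ξ ^ k))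
      ((minpoly.monic hint).pow _)
      (by rw [orbPoly, natDegree_pow, hV, Nat.div_mul_cancel hdn])
      (by
        rw [orbPoly, coeff_zero_eq_eval_zero, eval_pow, ← coeff_zero_eq_eval_zero]
        exact pow_ne_zero _ (minpoly.coeff_zero_ne_zero hint
          (pow_ne_zero _ (hξ.ne_zero hMpos.ne'))))
    have hw := h g
    rw [ev_of_cyclic_primary _ hv hg (minpoly.monic hint) (minpoly.irreducible hint) hP,
      ev_of_cyclic_primary _ hv hg (minpoly.monic hint) (minpoly.irreducible hint) hP] at hw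
    rw [← liftW_orbPoly _ (hdiv k), ← liftW_orbPoly _ (hdiv k)]
    have hpow : ∀ (η : K →* ℂ) (f : F[X]) (N : ℕ), liftW η (f ^ N) = N • liftW η f := by
      intro η f N
      rw [liftW, Polynomial.map_pow, rsum, roots_pow, Multiset.map_nsmul, Multiset.sum_nsmul]
      rfl
    rw [orbPoly, hpow, hpow, hw]
  have hζ : IsPrimitiveRoot (θ ξ) M := hξ.map_of_injective hθ
  have hcount : ∀ c : ℕ, ∑ k ∈ Finset.range M, orbSum F ((powMonoidHom c).comp θ) n (ξ ^ k) *
      conj (((θ ξ) ^ a) ^ k) =
      (((Finset.range n).filter fun i => c * q ^ i % M = a % M).card : ℂ) * M := by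
    intro c
    simp only [orbSum_pow, Finset.sum_mul, ← hq]
    rw [Finset.sum_comm, Finset.sum_congr rfl (g := fun i => if c * q ^ i % M = a % M then (M : ℂ)
      else 0) fun i _ => sum_pow_mul_conj hζ hMpos _ _, ← Finset.sum_filter, Finset.sum_const,
      nsmul_eq_mul]
  have h1 := hcount a
  rw [Finset.sum_congr rfl fun k _ => by rw [horb k], hcount b] at h1
  have h2 : ((Finset.range n).filter fun i => b * q ^ i % M = a % M).card =
      ((Finset.range n).filter fun i => a * q ^ i % M = a % M).card :=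
    Nat.cast_injective (R := ℂ) (mul_right_cancel₀ (Nat.cast_ne_zero.2 hMpos.ne') h1)
  have h3 : 0 < ((Finset.range n).filter fun i => a * q ^ i % M = a % M).card :=
    Finset.card_pos.2 ⟨0, Finset.mem_filter.2
      ⟨Finset.mem_range.2 (Nat.pos_of_ne_zero hn), by rw [pow_zero, mul_one]⟩⟩
  rw [← h2, Finset.card_pos] at h3
  obtain ⟨i, hi⟩ := h3
  exact ⟨i, Finset.mem_range.1 (Finset.mem_filter.1 hi).1, (Finset.mem_filter.1 hi).2⟩

end Cfsg.Agent.Cuspidal
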