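import Cfsg.Agent.Cuspidal.Identity
import Cfsg.Agent.CharInd.BrauerMonomial
import Cfsg.Agent.Char.Virtual

/-!
# The lifted trace is a generalized character
-/

set_option autoImplicit false
set_option linter.unusedSectionVars false
set_option linter.style.haveILetI false

noncomputable section

namespace Cfsg.Agent.Cuspidal

open Polynomial
open scoped ComplexConjugate

universe u v

variable {K : Type*} [Field K] [Finite K]

/-- The sum of the images of the roots. -/
def rsum (θ : K →* ℂ) (P : K[X]) : ℂ := (P.roots.map θ).sum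

theorem rsum_mul (θ : K →* ℂ) {P Q : K[X]} (hP : P.Monic) (hQ : Q.Monic) :
    rsum θ (P * Q) = rsum θ P + rsum θ Q := by
  rw [rsum, rsum, rsum, roots_mul (mul_ne_zero hP.ne_zero hQ.ne_zero), Multiset.map_add,
    Multiset.sum_add]

theorem rsum_one (θ : K →* ℂ) : rsum θ (1 : K[X]) = 0 := by simp [rsum]

section Linear

variable {V : Type v} [AddCommGroup V] [Module K V] [Finite V]

theorem charpoly_pow_card_pow (f : Module.End K V) (a : ℕ) :
    (f ^ (Nat.card K) ^ a).charpoly = f.charpoly := by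
  classical
  letI := Fintype.ofFinite K
  rw [Nat.card_eq_fintype_card]
  induction a with
  | zero => rw [pow_zero, pow_one]
  | succ a ih =>
    let b := Module.Free.chooseBasis K V
    rw [pow_succ, pow_mul, ← LinearMap.charpoly_toMatrix _ b, ← ih,
      ← LinearMap.charpoly_toMatrix (f ^ Fintype.card K ^ a) b]
    have h := map_pow (LinearMap.toMatrixAlgEquiv b) (f ^ Fintype.card K ^ a) (Fintype.card K)
    change LinearMap.toMatrix b b _ = (LinearMap.toMatrix b b _) ^ _ at h
    rw [h, FiniteField.Matrix.charpoly_pow_card]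

theorem exists_eigenvalue [Nontrivial V] (f : Module.End K V) {a : ℕ}
    (h : f ^ (Nat.card K ^ a * (Nat.card K - 1)) = 1) : ∃ μ : K, f.HasEigenvalue μ := by
  classical
  letI := Fintype.ofFinite K
  rw [Nat.card_eq_fintype_card] at h
  set w := f ^ Fintype.card K ^ a with hw
  have hwQ : aeval w (X ^ Fintype.card K - X : K[X]) = 0 := by
    rw [map_sub, map_pow, aeval_X, sub_eq_zero]
    have h1 : w ^ (Fintype.card K - 1) = 1 := by rw [hw, ← pow_mul]; exact h
    calc w ^ Fintype.card K = w ^ (Fintype.card K - 1) * w := by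
          rw [← pow_succ, Nat.sub_add_cancel Fintype.card_pos]
      _ = w := by rw [h1, one_mul]
  have hne : (X ^ Fintype.card K - X : K[X]) ≠ 0 :=
    FiniteField.X_pow_card_sub_X_ne_zero K Fintype.one_lt_card
  obtain ⟨μ, hμ⟩ := Splits.exists_eval_eq_zero
    (Splits.of_dvd (by simpa using (FiniteField.isSplittingField_sub K K).splits) hne
      (minpoly.dvd K w hwQ))
    (minpoly.degree_pos (Algebra.IsIntegral.isIntegral w)).ne'
  refine ⟨μ, ?_⟩
  rw [Module.End.hasEigenvalue_iff_isRoot_charpoly]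
  have h2 : w.HasEigenvalue μ := Module.End.hasEigenvalue_iff_isRoot.2 hμ
  rw [Module.End.hasEigenvalue_iff_isRoot_charpoly, hw, ← Nat.card_eq_fintype_card,
    charpoly_pow_card_pow] at h2
  exact h2

theorem rsum_smul (θ : K →* ℂ) (f : Module.End K V) {c : K} (hc : c ≠ 0) :
    rsum θ (c • f).charpoly = θ c * rsum θ f.charpoly := by
  classical
  let b := Module.Free.chooseBasis K V
  rw [← LinearMap.charpoly_toMatrix (c • f) b, map_smul, ← LinearMap.charpoly_toMatrix f b]
  set M := LinearMap.toMatrix b b f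
  have h : (c • M).charpoly =
      C (c ^ Fintype.card (Module.Free.ChooseBasisIndex K V)) *
        M.charpoly.comp (C c⁻¹ * X + C 0) := by
    rw [map_pow, Matrix.charpoly, Matrix.charpoly, ← coe_compRingHom_apply,
      RingHom.map_det, ← Matrix.det_smul]
    congr 1
    ext i j : 1
    simp only [Matrix.smul_apply, smul_eq_mul, RingHom.mapMatrix_apply, Matrix.map_apply,
      coe_compRingHom_apply, map_zero, add_zero]
    by_cases hij : i = j
    · subst hij
      rw [Matrix.charmatrix_apply_eq, Matrix.charmatrix_apply_eq, Matrix.smul_apply, smul_eq_mul,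
        sub_comp, X_comp, C_comp, mul_sub, ← mul_assoc, ← map_mul, ← map_mul,
        mul_inv_cancel₀ hc, map_one, one_mul]
    · rw [Matrix.charmatrix_apply_ne _ _ _ hij, Matrix.charmatrix_apply_ne _ _ _ hij,
        Matrix.smul_apply, smul_eq_mul, neg_comp, C_comp, mul_neg, ← map_mul]
  rw [rsum, h, roots_C_mul _ (pow_ne_zero _ hc),
    roots_comp_C_mul_X_add_C _ _ _ (isUnit_iff_ne_zero.2 (inv_ne_zero hc)), Multiset.map_map,
    rsum, ← Multiset.sum_map_mul_left]
  congr 1
  refine Multiset.map_congr rfl fun x _ => ?_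
  simp [Ring.inverse_eq_inv', map_mul]

end Linear

/-- The twisted sum over a nilpotent group is a multiple of the order. -/
theorem exists_sum_eq (θ : K →* ℂ) (hθ : Function.Injective θ) {p : ℕ} (hp : p.Prime)
    (hpK : ¬ p ∣ Nat.card K - 1) :
    ∀ (N : ℕ) (H : Type u) [Group H] [Fintype H] [Group.IsNilpotent H] (V : Type v)
      [AddCommGroup V] [Module K V] [Finite V] (ρ : H →* Module.End K V) (c : H →* ℂˣ),
      Nat.card H + Nat.card V = N →
      (∀ h : H, ∃ a : ℕ, c h ^ p ^ a = 1) →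
      (∀ h : H, ∃ a : ℕ, h ^ (Nat.card K ^ a * (Nat.card K - 1)) = 1) →
      ∃ k : ℤ, ∑ h : H, (c h : ℂ) * rsum θ (ρ h).charpoly = (Nat.card H : ℂ) * k := by
  classical
  intro N
  induction N using Nat.strong_induction_on with
  | _ N ih =>
  intro H _ _ _ V _ _ _ ρ c hN hc hexp
  rcases subsingleton_or_nontrivial V with hV | hV
  · refine ⟨0, ?_⟩
    rw [Int.cast_zero, mul_zero]
    refine Finset.sum_eq_zero fun h _ => ?_
    rw [eq_one_of_monic_natDegree_zero (LinearMap.charpoly_monic (ρ h))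
      (by rw [LinearMap.charpoly_natDegree, Module.finrank_zero_of_subsingleton]), rsum_one,
      mul_zero]
  by_cases hred : ∃ W : Submodule K V, W ≠ ⊥ ∧ W ≠ ⊤ ∧ ∀ h, W ≤ W.comap (ρ h)
  · obtain ⟨W, hW0, hW1, hW⟩ := hred
    haveI : Finite (V ⧸ W) := Finite.of_surjective _ W.mkQ_surjective
    let ρ1 : H →* Module.End K W :=
      { toFun := fun h => (ρ h).restrict (hW h)
        map_one' := LinearMap.ext fun x => Subtype.ext (by simp)
        map_mul' := fun a b => LinearMap.ext fun x => Subtype.ext (by simp) }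
    let ρ2 : H →* Module.End K (V ⧸ W) :=
      { toFun := fun h => W.mapQ W (ρ h) (hW h)
        map_one' := Submodule.linearMap_qext W (LinearMap.ext fun x => by simp)
        map_mul' := fun a b => Submodule.linearMap_qext W (LinearMap.ext fun x => by simp) }
    have h1 : Nat.card H + Nat.card W < N := by
      rw [← hN, Submodule.card_eq_card_quotient_mul_card W]
      haveI : Nontrivial (V ⧸ W) := Submodule.Quotient.nontrivial_iff.2 hW1
      exact Nat.add_lt_add_left (lt_mul_of_one_lt_right Nat.card_pos Finite.one_lt_card) _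
    have h2 : Nat.card H + Nat.card (V ⧸ W) < N := by
      rw [← hN, Submodule.card_eq_card_quotient_mul_card W]
      haveI : Nontrivial W := Submodule.nontrivial_iff_ne_bot.2 hW0
      exact Nat.add_lt_add_left (lt_mul_of_one_lt_left Nat.card_pos Finite.one_lt_card) _
    obtain ⟨k1, hk1⟩ := ih _ h1 H W ρ1 c rfl hc hexp
    obtain ⟨k2, hk2⟩ := ih _ h2 H (V ⧸ W) ρ2 c rfl hc hexp
    refine ⟨k1 + k2, ?_⟩
    rw [Int.cast_add, mul_add, ← hk1, ← hk2, ← Finset.sum_add_distrib]
    refine Finset.sum_congr rfl fun h _ => ?_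
    rw [charpoly_eq_mul W (ρ h) (hW h), rsum_mul θ (LinearMap.charpoly_monic _)
      (LinearMap.charpoly_monic _), mul_add]
    rfl
  simp only [not_exists, not_and] at hred
  rcases subsingleton_or_nontrivial H with hH | hH
  · refine ⟨Module.finrank K V, ?_⟩
    rw [Finset.sum_eq_single (1 : H) (fun h _ hne => absurd (Subsingleton.elim h 1) hne)
      (fun h => absurd (Finset.mem_univ _) h)]
    rw [map_one, map_one, Nat.card_of_subsingleton (1 : H), Nat.cast_one, one_mul, Units.val_one,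
      one_mul, LinearMap.charpoly_one, rsum, roots_pow, ← map_one C, roots_X_sub_C,
      Multiset.nsmul_singleton, Multiset.map_replicate, map_one, Multiset.sum_replicate, nsmul_one]
    rfl
  obtain ⟨⟨z, hzc⟩, hz1⟩ := (Subgroup.nontrivial_iff_ne_bot _).2
    (Group.IsNilpotent.center_ne_bot (G := H)) |>.exists_pair_ne |> fun ⟨a, b, hab⟩ =>
      (if h : a = 1 then ⟨b, fun hb => hab (h.trans hb.symm)⟩ else ⟨a, h⟩ :
        ∃ a : Subgroup.center H, a ≠ 1)
  replace hz1 : z ≠ 1 := fun h => hz1 (Subtype.ext h)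
  obtain ⟨a, ha⟩ := hexp z
  obtain ⟨μ, hμ⟩ := exists_eigenvalue (ρ z) (a := a) (by rw [← map_pow, ha, map_one])
  have hscal : ρ z = μ • 1 := by
    have htop : Module.End.eigenspace (ρ z) μ = ⊤ := by
      by_contra hne
      refine hred _ hμ hne fun h x hx => ?_
      rw [Submodule.mem_comap, Module.End.mem_eigenspace_iff, ← Module.End.mul_apply, ← map_mul,
        ← (Subgroup.mem_center_iff.1 hzc h), map_mul, Module.End.mul_apply,
        Module.End.mem_eigenspace_iff.1 hx, map_smul]
    refine LinearMap.ext fun x => ?_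
    have hx : x ∈ Module.End.eigenspace (ρ z) μ := htop ▸ Submodule.mem_top
    simpa using Module.End.mem_eigenspace_iff.1 hx
  have hμ0 : μ ≠ 0 := by
    intro h0
    obtain ⟨x, hx⟩ := exists_ne (0 : V)
    have h1 : ρ z = 0 := by rw [hscal, h0, zero_smul]
    have h2 : ρ z * ρ z⁻¹ = 1 := by rw [← map_mul, mul_inv_cancel, map_one]
    rw [h1, zero_mul] at h2
    exact hx (by simpa using (LinearMap.congr_fun h2 x).symm)
  set S := ∑ h : H, (c h : ℂ) * rsum θ (ρ h).charpoly with hS
  by_cases hfac : (c z : ℂ) * θ μ = 1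
  swap
  · refine ⟨0, ?_⟩
    rw [Int.cast_zero, mul_zero]
    have h1 : (c z : ℂ) * θ μ * S = S := by
      conv_rhs => rw [hS, ← Equiv.sum_comp (Equiv.mulLeft z)]
      rw [hS, Finset.mul_sum]
      refine Finset.sum_congr rfl fun h _ => ?_
      rw [Equiv.coe_mulLeft, map_mul, map_mul, hscal, smul_mul_assoc, one_mul,
        rsum_smul θ (ρ h) hμ0, Units.val_mul]
      ring
    have h2 : ((c z : ℂ) * θ μ - 1) * S = 0 := by rw [sub_mul, one_mul, h1, sub_self]
    exact (mul_eq_zero.1 h2).resolve_left (sub_ne_zero.2 hfac)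
  have hμ1 : μ = 1 := by
    obtain ⟨b, hb⟩ := hc z
    have h1 : μ ^ p ^ b = 1 := hθ (by
      have h2 : ((c z : ℂ) * θ μ) ^ p ^ b = 1 := by rw [hfac, one_pow]
      rw [mul_pow, ← Units.val_pow_eq_pow_val, hb, Units.val_one, one_mul, ← map_pow] at h2
      rw [h2, map_one])
    letI := Fintype.ofFinite K
    have h3 : μ ^ (Nat.card K - 1) = 1 := by
      rw [Nat.card_eq_fintype_card]; exact FiniteField.pow_card_sub_one_eq_one μ hμ0
    have h4 : μ ^ Nat.gcd (p ^ b) (Nat.card K - 1) = 1 := pow_gcd_eq_one.2 ⟨h1, h3⟩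
    rwa [((hp.coprime_iff_not_dvd.2 hpK).pow_left b).gcd_eq_one, pow_one] at h4
  subst hμ1
  rw [one_smul] at hscal
  have hcz : c z = 1 := Units.ext (by rw [map_one θ, mul_one] at hfac; exact hfac)
  let Z := Subgroup.zpowers z
  haveI : Z.Normal := ⟨fun n hn g => by
    have : n ∈ Subgroup.center H := Subgroup.zpowers_le.2 hzc hn
    rw [(Subgroup.mem_center_iff.1 this) g, mul_inv_cancel_right]; exact hn⟩
  letI := Fintype.ofFinite (H ⧸ Z)
  have hρker : Z ≤ ρ.ker := Subgroup.zpowers_le.2 hscal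
  have hcker : Z ≤ c.ker := Subgroup.zpowers_le.2 hcz
  let ρ' : H ⧸ Z →* Module.End K V := QuotientGroup.lift Z ρ hρker
  let c' : H ⧸ Z →* ℂˣ := QuotientGroup.lift Z c hcker
  have hlt : Nat.card (H ⧸ Z) + Nat.card V < N := by
    rw [← hN, Subgroup.card_eq_card_quotient_mul_card_subgroup Z]
    haveI : Nontrivial Z := (Subgroup.nontrivial_iff_ne_bot _).2 (Subgroup.zpowers_ne_bot.2 hz1)
    exact Nat.add_lt_add_right (lt_mul_of_one_lt_right Nat.card_pos Finite.one_lt_card) _
  obtain ⟨k, hk⟩ := ih _ hlt (H ⧸ Z) V ρ' c' rfl (fun h => by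
      obtain ⟨g, rfl⟩ := QuotientGroup.mk_surjective h
      exact hc g) (fun h => by
      obtain ⟨g, rfl⟩ := QuotientGroup.mk_surjective h
      obtain ⟨a, ha⟩ := hexp g
      exact ⟨a, by rw [← QuotientGroup.mk_pow, ha, QuotientGroup.mk_one]⟩)
  refine ⟨k, ?_⟩
  rw [Subgroup.card_eq_card_quotient_mul_card_subgroup Z, Nat.cast_mul, mul_right_comm, ← hk,
    hS, ← Finset.sum_fiberwise Finset.univ (fun h : H => (h : H ⧸ Z)), Finset.sum_mul]
  refine Finset.sum_congr rfl fun x _ => ?_
  obtain ⟨g, rfl⟩ := QuotientGroup.mk_surjective x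
  rw [Finset.sum_congr rfl (g := fun _ => (c g : ℂ) * rsum θ (ρ g).charpoly) (fun h hh => ?_),
    Finset.sum_const, nsmul_eq_mul, mul_comm]
  · congr 1
    rw [Nat.card_eq_fintype_card, Nat.cast_inj]
    refine Finset.card_bij' (fun h hh => (⟨g⁻¹ * h, ?_⟩ : Z)) (fun y _ => g * (y : H))
      (fun _ _ => Finset.mem_univ _) (fun y _ => ?_) (fun h _ => by simp) (fun y _ => by simp)
    · exact (QuotientGroup.eq (s := Z)).1 (Finset.mem_filter.1 hh).2.symm
    · refine Finset.mem_filter.2 ⟨Finset.mem_univ _, ?_⟩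
      exact ((QuotientGroup.eq (s := Z)).2 (by simp)).symm
  · have e : (h : H ⧸ Z) = (g : H ⧸ Z) := (Finset.mem_filter.1 hh).2
    show _ * rsum θ (ρ h).charpoly = _
    rw [show (c h) = c' (h : H ⧸ Z) from rfl, show ρ h = ρ' (h : H ⧸ Z) from rfl, e]
    rfl

/-- Every element of `ℂˣ` of order dividing `|K| - 1` is an image. -/
theorem exists_preimage (θ : K →* ℂ) (hθ : Function.Injective θ) (z : ℂˣ)
    (hz : z ^ (Nat.card K - 1) = 1) : ∃ x : Kˣ, θ x = (z : ℂ) := by
  classical
  letI := Fintype.ofFinite K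
  have hpos : 0 < Nat.card K - 1 := by
    have := Finite.one_lt_card (α := K); omega
  haveI : NeZero (Nat.card K - 1) := ⟨hpos.ne'⟩
  let φ : Kˣ →* rootsOfUnity (Nat.card K - 1) ℂ :=
    (Units.map θ).codRestrict _ fun x => by
      rw [mem_rootsOfUnity, ← map_pow, Nat.card_eq_fintype_card,
        ← Fintype.card_units, pow_card_eq_one, map_one]
  have hinj : Function.Injective φ := fun x y h => Units.ext (hθ (congrArg Units.val
    (congrArg Subtype.val h)))
  have hbij : Function.Bijective φ := by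
    refine (Nat.bijective_iff_injective_and_card φ).2 ⟨hinj, ?_⟩
    rw [Complex.card_rootsOfUnity, Nat.card_units]
  obtain ⟨x, hx⟩ := hbij.2 ⟨z, (mem_rootsOfUnity _ z).2 hz⟩
  exact ⟨x, congrArg Units.val (congrArg Subtype.val hx)⟩

/-- The sum over a nilpotent group against a linear character. -/
theorem exists_sum_linear (θ : K →* ℂ) (hθ : Function.Injective θ) {p f : ℕ} (hp : p.Prime)
    (hK : Nat.card K = p ^ f) {H : Type u} [Group H] [Fintype H] [Group.IsNilpotent H]
    {V : Type v} [AddCommGroup V] [Module K V] [Finite V] (ρ : H →* Module.End K V)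
    (lam : H →* ℂˣ) (hexp : ∀ h : H, ∃ a : ℕ, h ^ (Nat.card K ^ a * (Nat.card K - 1)) = 1) :
    ∃ k : ℤ, ∑ h : H, (lam h : ℂ) * rsum θ (ρ h).charpoly = (Nat.card H : ℂ) * k := by
  classical
  have h1K := Finite.one_lt_card (α := K)
  have hpK : ¬ p ∣ Nat.card K - 1 := by
    intro h
    have hf : f ≠ 0 := by rintro rfl; rw [hK, pow_zero] at h1K; omega
    have hd : p ∣ Nat.card K := hK ▸ dvd_pow_self p hf
    have h2 := Nat.dvd_sub hd h
    rw [Nat.sub_sub_self (by omega)] at h2
    exact hp.not_dvd_one h2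
  set m := Nat.card K - 1 with hm
  choose a ha using hexp
  set A := Finset.univ.sup a with hA
  have hall : ∀ h : H, h ^ (p ^ (f * A) * m) = 1 := fun h => by
    obtain ⟨d, hd⟩ := Nat.exists_eq_add_of_le (Finset.le_sup (f := a) (Finset.mem_univ h))
    rw [← hA] at hd
    rw [pow_mul p, ← hK, hd, pow_add, mul_right_comm, pow_mul, ha, one_pow]
  obtain ⟨x, y, hxy⟩ := ((Int.isCoprime_iff_nat_coprime).2
    (show Nat.Coprime (Int.natAbs (p ^ (f * A) : ℕ)) (Int.natAbs (m : ℕ)) by
      rw [Int.natAbs_natCast, Int.natAbs_natCast]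
      exact (hp.coprime_iff_not_dvd.2 hpK).pow_left _))
  let c2 : H →* ℂˣ :=
    { toFun := fun h => lam h ^ (x * ((p ^ (f * A) : ℕ) : ℤ))
      map_one' := by simp
      map_mul' := fun g h => by rw [map_mul, mul_zpow] }
  let c1 : H →* ℂˣ :=
    { toFun := fun h => lam h ^ (y * (m : ℤ))
      map_one' := by simp
      map_mul' := fun g h => by rw [map_mul, mul_zpow] }
  have hN : ∀ h, lam h ^ ((p ^ (f * A) * m : ℕ) : ℤ) = 1 := fun h => by
    rw [zpow_natCast, ← map_pow, hall, map_one]
  have h2 : ∀ h, c2 h ^ m = 1 := fun h => by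
    show (lam h ^ (x * ((p ^ (f * A) : ℕ) : ℤ))) ^ m = 1
    rw [← zpow_natCast, ← zpow_mul, mul_assoc, ← Nat.cast_mul, mul_comm x, zpow_mul, hN, one_zpow]
  have h1 : ∀ h, c1 h ^ p ^ (f * A) = 1 := fun h => by
    show (lam h ^ (y * (m : ℤ))) ^ p ^ (f * A) = 1
    rw [← zpow_natCast, ← zpow_mul, mul_assoc, ← Nat.cast_mul, mul_comm y, mul_comm m, zpow_mul,
      hN, one_zpow]
  choose μ hμ using fun h => exists_preimage θ hθ (c2 h) (h2 h)
  have hμmul : ∀ g h, μ (g * h) = μ g * μ h := fun g h => Units.ext (hθ (by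
    rw [Units.val_mul, map_mul, hμ, hμ, hμ, map_mul, Units.val_mul]))
  let ρ' : H →* Module.End K V :=
    { toFun := fun h => (μ h : K) • ρ h
      map_one' := by
        have : μ 1 = 1 := by have := hμmul 1 1; rw [mul_one] at this; exact mul_eq_left.1 this.symm
        rw [this, Units.val_one, one_smul, map_one]
      map_mul' := fun g h => by
        rw [hμmul, Units.val_mul, map_mul, smul_mul_smul_comm] }
  obtain ⟨k, hk⟩ := exists_sum_eq θ hθ hp hpK _ H V ρ' c1 rfl (fun h => ⟨_, h1 h⟩)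
    (fun h => ⟨a h, ha h⟩)
  refine ⟨k, ?_⟩
  rw [← hk]
  refine Finset.sum_congr rfl fun h _ => ?_
  show _ = _ * rsum θ ((μ h : K) • ρ h).charpoly
  rw [rsum_smul θ (ρ h) (μ h).ne_zero, hμ, ← mul_assoc, ← Units.val_mul]
  congr 2
  show lam h = lam h ^ (y * (m : ℤ)) * lam h ^ (x * ((p ^ (f * A) : ℕ) : ℤ))
  rw [← zpow_add, add_comm, hxy, zpow_one]

variable {F : Type*} [Field F] [Finite F] [Algebra F K]

/-- The lifted value of a monic polynomial. -/
def liftW (θ : K →* ℂ) (P : F[X]) : ℂ := rsum θ (P.map (algebraMap F K))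

theorem liftW_mul (θ : K →* ℂ) (P Q : F[X]) (hP : P.Monic) (hQ : Q.Monic) :
    liftW θ (P * Q) = liftW θ P + liftW θ Q := by
  rw [liftW, Polynomial.map_mul]; exact rsum_mul θ (hP.map _) (hQ.map _)

/-- **The lifted trace is a generalized character.** -/
theorem liftW_isGeneralized (θ : K →* ℂ) (hθ : Function.Injective θ) {p f : ℕ} (hp : p.Prime)
    (hK : Nat.card K = p ^ f) {G : Type u} [Group G] [Finite G]
    {V : Type v} [AddCommGroup V] [Module F V] [Finite V] (ρ : G →* Module.End F V)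
    (hexp : ∀ g : G, ∃ a : ℕ, g ^ (Nat.card K ^ a * (Nat.card K - 1)) = 1) :
    IsGeneralizedCharacter G fun g => liftW θ (ρ g).charpoly := by
  classical
  letI := Fintype.ofFinite G
  set φ : G → ℂ := fun g => liftW θ (ρ g).charpoly with hφ
  have hcl : IsClassFunction G φ := fun g h => by
    simp only [hφ]
    congr 1
    let e : V ≃ₗ[F] V := LinearEquiv.ofLinearMap (ρ h) (ρ h⁻¹)
      (by rw [← Module.End.mul_eq_comp, ← map_mul, mul_inv_cancel, map_one]; rfl)
      (by rw [← Module.End.mul_eq_comp, ← map_mul, inv_mul_cancel, map_one]; rfl)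
    rw [← LinearEquiv.charpoly_conj e (ρ g)]
    congr 1
    refine LinearMap.ext fun x => ?_
    rw [map_mul, map_mul]
    rfl
  refine Char.isGeneralizedCharacter_iff_classInner_int.2 ⟨hcl, fun ψ => ?_⟩
  have hψ := CharInd.mem_elemLinear (Char.isCharacter_of_irr ψ.2)
  suffices h : ∀ f ∈ CharInd.elemLinear (G := G), ∃ n : ℤ, classInner φ f = n from h _ hψ
  intro f' hf'
  induction hf' using AddSubgroup.closure_induction with
  | zero => exact ⟨0, by simp [classInner]⟩
  | add a b _ _ ha hb =>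
    obtain ⟨m, hm⟩ := ha
    obtain ⟨n, hn⟩ := hb
    exact ⟨m + n, by rw [Char.classInner_add_right, hm, hn]; push_cast; rfl⟩
  | neg a _ ha =>
    obtain ⟨m, hm⟩ := ha
    refine ⟨-m, ?_⟩
    rw [show classInner φ (-a) = -classInner φ a by
      simp [classInner, Finset.sum_neg_distrib], hm]
    push_cast; rfl
  | mem f' hf' =>
    obtain ⟨q, E, lam, hq, hE, rfl⟩ := hf'
    letI := Fintype.ofFinite E
    haveI : Group.IsNilpotent E := Cfsg.Agent.Char.isNilpotent_of_isElementary hq hE
    rw [CharInd.classInner_indFun_right E _ hcl]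
    let b := Module.Free.chooseBasis F V
    haveI : Finite (Module.Free.ChooseBasisIndex F V → K) := Pi.finite
    let ρK : E →* Module.End K (Module.Free.ChooseBasisIndex F V → K) :=
      ((Matrix.toLinAlgEquiv' (R := K) (n := Module.Free.ChooseBasisIndex F V)).toAlgHom :
          Matrix _ _ K →* _).comp
        ((algebraMap F K).mapMatrix.toMonoidHom.comp
          ((LinearMap.toMatrixAlgEquiv b).toMulEquiv.toMonoidHom.comp
            (ρ.comp E.subtype)))
    obtain ⟨k, hk⟩ := exists_sum_linear θ hθ hp hK ρK lam⁻¹ (fun e => by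
      obtain ⟨a, ha⟩ := hexp (e : G)
      exact ⟨a, Subtype.ext (by rw [SubgroupClass.coe_pow, ha]; rfl)⟩)
    refine ⟨k, ?_⟩
    rw [classInner, ← mul_right_inj' (Nat.cast_ne_zero.2 (Nat.card_pos (α := E)).ne' :
      (Nat.card E : ℂ) ≠ 0), ← hk, mul_inv_cancel_left₀ (Nat.cast_ne_zero.2 Nat.card_pos.ne')]
    refine Finset.sum_congr rfl fun e _ => ?_
    have hroot : (((lam e) : ℂˣ) : ℂ) ≠ 0 := Units.ne_zero _
    have hconj : conj ((lam e : ℂˣ) : ℂ) = ((lam⁻¹ e : ℂˣ) : ℂ) := by
      have h := (Char.isCharacter_inv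
        (Char.isCharacter_of_irr (Char.isIrrCharacter_monoidHom lam)) e).symm
      simpa using h
    rw [hconj, mul_comm]
    congr 1
    show rsum θ ((ρ e).charpoly.map (algebraMap F K)) = rsum θ (ρK e).charpoly
    congr 1
    rw [← LinearMap.charpoly_toMatrix (ρ e) b, ← Matrix.charpoly_map, ← Matrix.charpoly_toLin']
    rfl

end Cfsg.Agent.Cuspidal
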