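import Cfsg.Agent.Cuspidal.Endo
import Cfsg.Agent.Cuspidal.Lift
import Cfsg.Agent.CharInd.GenChar
import Cfsg.Agent.CharInd.Clifford

/-!
# The weight as a generalized character of the general linear group
-/

set_option autoImplicit false
set_option linter.unusedSectionVars false
set_option linter.style.haveILetI false

noncomputable section

namespace Cfsg.Agent.Cuspidal

open Polynomial Submodule
open scoped ComplexConjugate

universe u v

variable {F : Type*} [Field F] [Finite F]

section

variable {V : Type u} [AddCommGroup V] [Module F V] [Finite V]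

/-- The automorphism group of a space. -/
abbrev Aut (F : Type*) (V : Type u) [Field F] [AddCommGroup V] [Module F V] : Type u :=
  (Module.End F V)ˣ

instance finite_end : Finite (Module.End F V) := Finite.of_injective _ DFunLike.coe_injective

theorem aut_injective (g : Aut F V) : Function.Injective (g : Module.End F V) :=
  ((Module.End.isUnit_iff _).1 g.isUnit).injective

theorem twist_isUnit (g : Aut F V) {W : Submodule F V} (hW : W ≤ W.comap (g : Module.End F V))
    (u : (V ⧸ W) →ₗ[F] W) : IsUnit (twist (g : Module.End F V) W u) := by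
  rw [Module.End.isUnit_iff]
  refine Finite.injective_iff_bijective.1 ((injective_iff_map_eq_zero _).2 fun x hx => ?_)
  have hmap : W.map (g : Module.End F V) = W :=
    Submodule.eq_of_le_of_finrank_eq (map_le_iff_le_comap.2 hW)
      (W.equivMapOfInjective _ (aut_injective g)).finrank_eq.symm
  have h1 : (g : Module.End F V) x ∈ W := by
    rw [← Submodule.Quotient.mk_eq_zero, ← mkQ_apply, ← mkQ_twist _ W u, hx, map_zero]
  rw [← hmap] at h1
  obtain ⟨y, hy, hyx⟩ := h1
  obtain rfl := aut_injective g hyx
  rw [twist_of_mem _ W u hy] at hx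
  exact aut_injective g (hx.trans (map_zero _).symm)

/-- **Cuspidality**: functions constant on twisting classes are orthogonal to the weight. -/
theorem sum_ev_mul_eq_zero {w : F[X] → ℂ} (hw : IsAdditive w) {W : Submodule F V}
    (hb : W ≠ ⊥) (ht : W ≠ ⊤) [Fintype (Aut F V)] (h : Aut F V → ℂ)
    (h0 : ∀ g : Aut F V, ¬ W ≤ W.comap (g : Module.End F V) → h g = 0)
    (htw : ∀ (g g' : Aut F V) (u : (V ⧸ W) →ₗ[F] W), W ≤ W.comap (g : Module.End F V) →
      (g' : Module.End F V) = twist (g : Module.End F V) W u → h g' = h g) :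
    ∑ g : Aut F V, ev w (g : Module.End F V) * h g = 0 := by
  classical
  haveI : Finite (V ⧸ W) := Finite.of_surjective _ W.mkQ_surjective
  haveI : Finite ((V ⧸ W) →ₗ[F] W) := Finite.of_injective _ DFunLike.coe_injective
  letI := Fintype.ofFinite ((V ⧸ W) →ₗ[F] W)
  set S := Finset.univ.filter fun g : Aut F V => W ≤ W.comap (g : Module.End F V) with hS
  have hmem : ∀ g : Aut F V, g ∈ S ↔ W ≤ W.comap (g : Module.End F V) := fun g => by
    rw [hS, Finset.mem_filter]; exact ⟨fun h => h.2, fun h => ⟨Finset.mem_univ _, h⟩⟩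
  rw [← Finset.sum_subset (Finset.subset_univ S) fun g _ hg => by
    rw [h0 g (fun h' => hg ((hmem g).2 h')), mul_zero]]
  set f : Aut F V → ℂ := fun g => ev w (g : Module.End F V) * h g with hf
  set T := ∑ g ∈ S, f g with hT
  have htt : ∀ (g : Module.End F V) (u u' : (V ⧸ W) →ₗ[F] W),
      twist (twist g W u) W u' = twist g W (u + u') := fun g u u' => LinearMap.ext fun x => by
    simp only [twist_apply, LinearMap.add_apply, Submodule.coe_add, add_assoc]
  have ht0 : ∀ g : Module.End F V, twist g W 0 = g := fun g => LinearMap.ext fun x => by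
    simp [twist_apply]
  have hshift : ∀ u : (V ⧸ W) →ₗ[F] W,
      ∑ g ∈ S, ev w (twist (g : Module.End F V) W u) * h g = T := by
    intro u
    refine Finset.sum_bij' (fun g hg => (twist_isUnit g ((hmem g).1 hg) u).unit)
      (fun g hg => (twist_isUnit g ((hmem g).1 hg) (-u)).unit)
      (fun g hg => (hmem _).2 (le_comap_twist ((hmem g).1 hg) u))
      (fun g hg => (hmem _).2 (le_comap_twist ((hmem g).1 hg) (-u)))
      (fun g hg => Units.ext (by simp only [IsUnit.unit_spec, htt, add_neg_cancel, ht0]))
      (fun g hg => Units.ext (by simp only [IsUnit.unit_spec, htt, neg_add_cancel, ht0]))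
      fun g hg => ?_
    show _ = ev w (twist (g : Module.End F V) W u) * h _
    rw [htw g _ u ((hmem g).1 hg) (IsUnit.unit_spec _)]
  have h1 : (Fintype.card ((V ⧸ W) →ₗ[F] W) : ℂ) * T = 0 := by
    calc (Fintype.card ((V ⧸ W) →ₗ[F] W) : ℂ) * T
        = ∑ u : (V ⧸ W) →ₗ[F] W, ∑ g ∈ S, ev w (twist (g : Module.End F V) W u) * h g := by
          rw [Finset.sum_congr rfl fun u _ => hshift u, Finset.sum_const, nsmul_eq_mul]; rfl
      _ = 0 := by
          rw [Finset.sum_comm]
          refine Finset.sum_eq_zero fun g hg => ?_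
          rw [← Finset.sum_mul, sum_ev_twist hw _ V (g : Module.End F V) W rfl ((hmem g).1 hg) hb ht,
            zero_mul]
  exact (mul_eq_zero.1 h1).resolve_left (Nat.cast_ne_zero.2 Fintype.card_ne_zero)

/-- The stabilizer of a subspace. -/
def stab (W : Submodule F V) : Subgroup (Aut F V) where
  carrier := {x | W.map (x : Module.End F V) = W}
  one_mem' := Submodule.map_id W
  mul_mem' {a b} ha hb := by
    simp only [Set.mem_setOf_eq] at ha hb ⊢
    rw [Units.val_mul, Module.End.mul_eq_comp, Submodule.map_comp, hb, ha]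
  inv_mem' {a} ha := by
    simp only [Set.mem_setOf_eq] at ha ⊢
    conv_lhs => rw [← ha]
    rw [← Submodule.map_comp, ← Module.End.mul_eq_comp, Units.inv_mul]
    exact Submodule.map_id W

theorem mem_stab {W : Submodule F V} {x : Aut F V} :
    x ∈ stab W ↔ W.map (x : Module.End F V) = W := Iff.rfl

theorem mem_stab_iff_le {W : Submodule F V} {x : Aut F V} :
    x ∈ stab W ↔ W ≤ W.comap (x : Module.End F V) := by
  rw [mem_stab]
  exact ⟨fun h => map_le_iff_le_comap.1 h.le, fun h => Submodule.eq_of_le_of_finrank_eq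
    (map_le_iff_le_comap.2 h) (W.equivMapOfInjective _ (aut_injective x)).finrank_eq.symm⟩

/-- The action of the stabilizer on the subspace. -/
def stabRes (W : Submodule F V) : stab W →* Aut F W :=
  MonoidHom.toHomUnits
    { toFun := fun x => ((x : Aut F V) : Module.End F V).restrict (mem_stab_iff_le.1 x.2)
      map_one' := LinearMap.ext fun x => Subtype.ext rfl
      map_mul' := fun a b => LinearMap.ext fun x => Subtype.ext rfl }

theorem exists_aut_map {W W' : Submodule F V}
    (h : Module.finrank F W = Module.finrank F W') :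
    ∃ x : Aut F V, W.map (x : Module.End F V) = W' := by
  obtain ⟨C, hC⟩ := W.exists_isCompl
  obtain ⟨C', hC'⟩ := W'.exists_isCompl
  let e₁ : W ≃ₗ[F] W' := LinearEquiv.ofFinrankEq _ _ h
  have hc : Module.finrank F C = Module.finrank F C' := by
    have h1 := Submodule.finrank_add_eq_of_isCompl hC
    have h2 := Submodule.finrank_add_eq_of_isCompl hC'
    omega
  let e : V ≃ₗ[F] V := (W.prodEquivOfIsCompl C hC).symm.trans
    ((e₁.prodCongr (LinearEquiv.ofFinrankEq _ _ hc)).trans (W'.prodEquivOfIsCompl C' hC'))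
  have hew : ∀ y : W, e (y : V) = (e₁ y : V) := fun y => by
    simp [e]
  refine ⟨(LinearMap.GeneralLinearGroup.generalLinearEquiv F V).symm e, ?_⟩
  change W.map (e : V →ₗ[F] V) = W'
  refine le_antisymm ?_ fun z hz => ?_
  · rintro _ ⟨y, hy, rfl⟩
    exact (hew ⟨y, hy⟩).symm ▸ (e₁ ⟨y, hy⟩).2
  · refine ⟨(e₁.symm ⟨z, hz⟩ : W), (e₁.symm ⟨z, hz⟩).2, ?_⟩
    show e _ = z
    rw [hew, e₁.apply_symm_apply]

theorem evOn_conj (w : F[X] → ℂ) (g x : Aut F V) (W : Submodule F V) :
    evOn w (g : Module.End F V) (W.map (x : Module.End F V)) =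
      evOn w ((x⁻¹ * g * x : Aut F V) : Module.End F V) W := by
  have hxy : ∀ y : V, (x : Module.End F V) (((x⁻¹ * g * x : Aut F V) : Module.End F V) y) =
      (g : Module.End F V) ((x : Module.End F V) y) := fun y => by
    rw [← Module.End.mul_apply, ← Units.val_mul, mul_assoc x⁻¹ g x, mul_inv_cancel_left,
      Units.val_mul, Module.End.mul_apply]
  by_cases h : W ≤ W.comap ((x⁻¹ * g * x : Aut F V) : Module.End F V)
  · have h' : W.map (x : Module.End F V) ≤ (W.map (x : Module.End F V)).comap
        (g : Module.End F V) := by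
      rintro _ ⟨y, hy, rfl⟩
      exact ⟨_, h hy, hxy y⟩
    rw [evOn, dif_pos h', evOn, dif_pos h]
    refine (ev_conj w (W.equivMapOfInjective _ (aut_injective x)) fun y => ?_).symm
    exact Subtype.ext (hxy y)
  · rw [evOn, evOn, dif_neg h, dif_neg]
    intro h'
    refine h fun y hy => ?_
    obtain ⟨z, hz, hzx⟩ := h' (mem_map_of_mem (f := (x : Module.End F V)) hy)
    rw [mem_comap, show ((x⁻¹ * g * x : Aut F V) : Module.End F V) y = z from
      aut_injective x ((hxy y).trans hzx.symm)]
    exact hz

open Classical in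
theorem indFun_stab (w : F[X] → ℂ) [Fintype (Aut F V)] [Fintype (Submodule F V)]
    (W₀ : Submodule F V) (g : Aut F V) :
    Cfsg.indFun (stab W₀)
        (fun x => ev w ((stabRes W₀ x : Aut F W₀) : Module.End F W₀)) g =
      ∑ W ∈ Finset.univ.filter (fun W : Submodule F V =>
          Module.finrank F W = Module.finrank F W₀), evOn w (g : Module.End F V) W := by
  rw [CharInd.indFun_apply]
  have hterm : ∀ x : Aut F V, Cfsg.extendByZero (stab W₀)
      (fun x => ev w ((stabRes W₀ x : Aut F W₀) : Module.End F W₀)) (x⁻¹ * g * x) =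
      evOn w (g : Module.End F V) (W₀.map (x : Module.End F V)) := by
    intro x
    rw [evOn_conj]
    by_cases h : x⁻¹ * g * x ∈ stab W₀
    · rw [CharInd.extendByZero_mem _ _ h, evOn, dif_pos (mem_stab_iff_le.1 h)]
      rfl
    · rw [CharInd.extendByZero_notMem _ _ h, evOn, dif_neg fun h' => h (mem_stab_iff_le.2 h')]
  rw [Finset.sum_congr rfl fun x _ => hterm x, ← Finset.sum_fiberwise_of_maps_to
    (g := fun x : Aut F V => W₀.map (x : Module.End F V))
    (t := Finset.univ.filter fun W : Submodule F V =>
      Module.finrank F W = Module.finrank F W₀) (fun x _ => Finset.mem_filter.2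
        ⟨Finset.mem_univ _, (W₀.equivMapOfInjective _ (aut_injective x)).finrank_eq.symm⟩),
    Finset.mul_sum]
  refine Finset.sum_congr rfl fun W hW => ?_
  rw [Finset.sum_congr rfl (g := fun _ => evOn w (g : Module.End F V) W)
    (fun x hx => by rw [(Finset.mem_filter.1 hx).2]), Finset.sum_const, nsmul_eq_mul]
  obtain ⟨x₁, hx₁⟩ := exists_aut_map (Finset.mem_filter.1 hW).2.symm
  have hcard : (Finset.univ.filter fun x : Aut F V => W₀.map (x : Module.End F V) = W).card =
      Nat.card (stab W₀) := by
    rw [← Fintype.card_subtype, ← Nat.card_eq_fintype_card]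
    have key : ∀ x : Aut F V, W₀.map (x : Module.End F V) = W ↔ x₁⁻¹ * x ∈ stab W₀ := fun x => by
      rw [mem_stab, Units.val_mul, Module.End.mul_eq_comp, Submodule.map_comp]
      constructor
      · intro h
        rw [h, ← hx₁, ← Submodule.map_comp, ← Module.End.mul_eq_comp, Units.inv_mul]
        exact Submodule.map_id W₀
      · intro h
        conv_rhs => rw [← hx₁, ← h]
        rw [← Submodule.map_comp, ← Module.End.mul_eq_comp, Units.mul_inv]
        exact (Submodule.map_id _).symm
    exact Nat.card_congr ((Equiv.mulLeft x₁⁻¹).subtypeEquiv key)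
  rw [hcard, ← mul_assoc, inv_mul_cancel₀ (Nat.cast_ne_zero.2 Nat.card_pos.ne'), one_mul]

theorem card_aut : Nat.card (Aut F V) =
    ∏ i : Fin (Module.finrank F V), (Nat.card F ^ Module.finrank F V - Nat.card F ^ (i : ℕ)) := by
  letI := Fintype.ofFinite F
  rw [Nat.card_eq_fintype_card (α := F), ← Matrix.card_GL_field]
  exact Nat.card_congr
    (Units.mapEquiv (LinearMap.toMatrixAlgEquiv (Module.finBasis F V)).toMulEquiv).toEquiv

/-- The exponent condition of the lifting theorem. -/
theorem pow_exponent {K : Type*} [Field K] [Finite K] [Algebra F K] {n : ℕ}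
    (hM : ∏ i ∈ Finset.range n, (Nat.card F ^ (i + 1) - 1) ∣ Nat.card K - 1)
    (hn : Module.finrank F V ≤ n) (g : Aut F V) :
    g ^ (Nat.card K ^ (n * n) * (Nat.card K - 1)) = 1 := by
  set m := Module.finrank F V with hm
  haveI : Module.Finite F K := Module.Finite.of_finite
  have hdvd : Nat.card (Aut F V) ∣ Nat.card K ^ (n * n) * (Nat.card K - 1) := by
    have h1 : ∏ i : Fin m, (Nat.card F ^ m - Nat.card F ^ (i : ℕ)) =
        Nat.card F ^ (∑ i : Fin m, (i : ℕ)) * ∏ i : Fin m, (Nat.card F ^ (m - i) - 1) := by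
      rw [← Finset.prod_pow_eq_pow_sum, ← Finset.prod_mul_distrib]
      refine Finset.prod_congr rfl fun i _ => ?_
      rw [Nat.mul_sub_one, ← pow_add, Nat.add_sub_cancel' i.isLt.le]
    rw [card_aut, ← hm, h1]
    refine Nat.mul_dvd_mul ?_ ?_
    · refine dvd_trans (pow_dvd_pow _ ?_) (pow_dvd_pow_of_dvd ?_ _)
      · calc (∑ i : Fin m, (i : ℕ)) ≤ ∑ _i : Fin m, n :=
              Finset.sum_le_sum fun i _ => by omega
          _ ≤ n * n := by simpa using Nat.mul_le_mul_right n hn
      · rw [Module.natCard_eq_pow_finrank (K := F) (V := K)]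
        exact dvd_pow_self _ Module.finrank_pos.ne'
    · refine dvd_trans ?_ ((Finset.prod_dvd_prod_of_subset _ _ _
        (Finset.range_subset_range.2 hn)).trans hM)
      rw [← Finset.prod_range_reflect (fun i => Nat.card F ^ (i + 1) - 1) m,
        ← Fin.prod_univ_eq_prod_range (fun j => Nat.card F ^ (m - 1 - j + 1) - 1) m]
      refine dvd_of_eq (Finset.prod_congr rfl fun i _ => ?_)
      rw [show m - 1 - (i : ℕ) + 1 = m - i by have := i.isLt; omega]
  exact orderOf_dvd_iff_pow_eq_one.1 ((orderOf_dvd_natCard g).trans hdvd)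

end

/-- **The weight is a generalized character.** -/
theorem ev_isGeneralized {K : Type*} [Field K] [Finite K] [Algebra F K] (θ : K →* ℂ)
    (hθ : Function.Injective θ) {p f : ℕ} (hp : p.Prime) (hK : Nat.card K = p ^ f) {n : ℕ}
    (hM : ∏ i ∈ Finset.range n, (Nat.card F ^ (i + 1) - 1) ∣ Nat.card K - 1) :
    ∀ (m : ℕ) (V : Type u) [AddCommGroup V] [Module F V] [Finite V], Module.finrank F V = m →
      m ≤ n → IsGeneralizedCharacter (Aut F V) fun g => ev (liftW θ) (g : Module.End F V) := by
  classical
  intro m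
  induction m using Nat.strong_induction_on with
  | _ m ih =>
  intro V _ _ _ hV hmn
  letI := Fintype.ofFinite (Aut F V)
  letI := Fintype.ofFinite (Submodule F V)
  have hw : IsAdditive (liftW (F := F) θ) := liftW_mul θ
  have hlift : IsGeneralizedCharacter (Aut F V)
      fun g : Aut F V => liftW θ ((g : Module.End F V)).charpoly :=
    liftW_isGeneralized θ hθ hp hK (Units.coeHom _) fun g =>
      ⟨n * n, pow_exponent hM (hV.le.trans hmn) g⟩
  set P := (Finset.univ : Finset (Submodule F V)).filter fun W => W ≠ ⊥ ∧ W ≠ ⊤ with hP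
  set R := P.image fun W : Submodule F V => Module.finrank F W with hR
  have hdec : (fun g : Aut F V => ev (liftW θ) (g : Module.End F V)) =
      if m = 0 then 0 else (fun g : Aut F V => liftW θ ((g : Module.End F V)).charpoly) -
        ∑ k ∈ R, fun g : Aut F V =>
          ∑ W ∈ P.filter (fun W : Submodule F V => Module.finrank F W = k),
            evOn (liftW θ) (g : Module.End F V) W := by
    funext g
    rcases eq_or_ne m 0 with rfl | hm0
    · haveI : Subsingleton V := Module.finrank_zero_iff.1 hV
      haveI : Subsingleton (Module.AEval' (g : Module.End F V)) :=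
        (Module.AEval'.of _).symm.toEquiv.subsingleton
      rw [if_pos rfl]
      exact econt_subsingleton _
    rw [if_neg hm0, Pi.sub_apply, Finset.sum_apply, Finset.sum_fiberwise_of_maps_to
      (fun W hW => Finset.mem_image_of_mem _ hW), ← sum_evOn hw (g : Module.End F V)]
    have hne : (⊥ : Submodule F V) ≠ ⊤ := fun h => hm0 (by
      rw [← hV, ← finrank_top F V, ← h, finrank_bot])
    have hsplit : (Finset.univ : Finset (Submodule F V)) = insert ⊥ (insert ⊤ P) := by
      ext W
      simp only [Finset.mem_univ, Finset.mem_insert, hP, Finset.mem_filter, true_and, true_iff]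
      tauto
    rw [hsplit, Finset.sum_insert (by simp [hP, hne]), Finset.sum_insert (by simp [hP]),
      evOn_bot, evOn_top, zero_add, add_sub_cancel_right]
  rw [hdec]
  split_ifs
  · exact CharInd.genChar_zero
  refine CharInd.genChar_sub hlift (CharInd.genChar_sum _ fun k hk => ?_)
  obtain ⟨W₀, hW₀, rfl⟩ := Finset.mem_image.1 hk
  have hW₀' := (Finset.mem_filter.1 hW₀).2
  have hlt : Module.finrank F W₀ < m := hV ▸ Submodule.finrank_lt hW₀'.2
  have hpos : 0 < Module.finrank F W₀ := by
    rw [Nat.pos_iff_ne_zero, Ne, Submodule.finrank_eq_zero]; exact hW₀'.1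
  have heq : (fun g : Aut F V => ∑ W ∈ P.filter (fun W : Submodule F V => Module.finrank F W =
      Module.finrank F W₀), evOn (liftW θ) (g : Module.End F V) W) =
      Cfsg.indFun (stab W₀)
        (fun x => ev (liftW θ) ((stabRes W₀ x : Aut F W₀) : Module.End F W₀)) := by
    funext g
    rw [indFun_stab]
    refine Finset.sum_congr (Finset.ext fun W => ?_) fun _ _ => rfl
    simp only [hP, Finset.mem_filter, Finset.mem_univ, true_and, and_iff_right_iff_imp]
    intro h
    refine ⟨?_, ?_⟩
    · rintro rfl; rw [finrank_bot] at h; omega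
    · rintro rfl; rw [finrank_top] at h; omega
  rw [heq]
  refine CharInd.genChar_indFun _ ?_
  obtain ⟨a, b, ha, hb, hab⟩ := ih _ hlt W₀ rfl (hlt.le.trans hmn)
  exact ⟨fun x => a (stabRes W₀ x), fun x => b (stabRes W₀ x),
    CharInd.isCharacter_comp (stabRes W₀) ha, CharInd.isCharacter_comp (stabRes W₀) hb,
    funext fun x => congrFun hab (stabRes W₀ x)⟩

end Cfsg.Agent.Cuspidal
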