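import Cfsg.Agent.Cuspidal.Weight

/-!
# The sum of the weights of all submodules
-/

set_option autoImplicit false
set_option linter.unusedSectionVars false
set_option linter.style.haveILetI false

noncomputable section

namespace Cfsg.Agent.Cuspidal

open Polynomial Submodule

universe u

variable {F : Type*} [Field F] [Finite F]

section Fibre

variable {N : Type u} [AddCommGroup N] [Module F[X] N] [Finite N] {f : F[X]}
  {L : Submodule F[X] N}

theorem card_compl (hf : f.Monic) (hfi : Irreducible f) (hL : IsLine f L)
    {C : Submodule F[X] N} (hC : IsCompl L C) :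
    Nat.card {D : Submodule F[X] N // IsCompl L D} = Nat.card (ann f (N ⧸ L)) := by
  haveI : Finite (N ⧸ L) := Finite.of_surjective _ L.mkQ_surjective
  rw [← card_hom_ann (M := N ⧸ L) hfi hf hL, Nat.card_congr L.isComplEquivProj]
  set p₀ : N →ₗ[F[X]] L := L.projectionOnto C hC with hp₀
  refine Nat.card_congr
    { toFun := fun p => L.liftQ (p.1 - p₀) (fun x hx => by
        rw [LinearMap.mem_ker, LinearMap.sub_apply, p.2 ⟨x, hx⟩, hp₀,
          projectionOnto_apply_left hC ⟨x, hx⟩, sub_self])
      invFun := fun φ => ⟨φ.comp L.mkQ + p₀, fun x => by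
        rw [LinearMap.add_apply, LinearMap.comp_apply, mkQ_apply,
          (Submodule.Quotient.mk_eq_zero L).2 x.2, map_zero, zero_add, hp₀,
          projectionOnto_apply_left hC x]⟩
      left_inv := fun p => Subtype.ext (by simp only [liftQ_mkQ]; refine LinearMap.ext fun x => ?_; simp only [LinearMap.add_apply, LinearMap.sub_apply]; abel)
      right_inv := fun φ => linearMap_qext L (by simp only [liftQ_mkQ]; refine LinearMap.ext fun x => ?_; simp only [LinearMap.add_apply, LinearMap.sub_apply]; abel) }

theorem econt_fibre (w : F[X] → ℂ) (hf : f.Monic) (hfi : Irreducible f) (hL : IsLine f L)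
    [Fintype (Submodule F[X] N)] [DecidableEq (Submodule F[X] N)] [Nontrivial (N ⧸ L)] :
    ∑ W ∈ Finset.univ.filter (fun W : Submodule F[X] N => W ⊔ L = ⊤), econt w W =
      econt w (N ⧸ L) := by
  classical
  haveI : Finite (N ⧸ L) := Finite.of_surjective _ L.mkQ_surjective
  have hset : Finset.univ.filter (fun W : Submodule F[X] N => W ⊔ L = ⊤) =
      insert ⊤ (Finset.univ.filter fun W : Submodule F[X] N => IsCompl L W) := by
    ext W
    simp only [Finset.mem_filter, Finset.mem_univ, true_and, Finset.mem_insert]
    constructor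
    · intro h
      rcases hL.le_or_inf_eq_bot hfi W with h1 | h1
      · exact Or.inl (by rwa [sup_eq_left.2 h1] at h)
      · exact Or.inr ⟨disjoint_iff.2 (by rwa [inf_comm]), codisjoint_iff.2 (by rwa [sup_comm])⟩
    · rintro (rfl | h)
      · exact top_sup_eq _
      · rw [sup_comm]; exact codisjoint_iff.1 h.2
  have htop : (⊤ : Submodule F[X] N) ∉
      Finset.univ.filter fun W : Submodule F[X] N => IsCompl L W := by
    simp only [Finset.mem_filter, Finset.mem_univ, true_and]
    exact fun h => hL.ne_bot (top_disjoint.1 h.1.symm ▸ rfl)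
  rw [hset, Finset.sum_insert htop, econt_congr topEquiv w,
    Finset.sum_congr rfl (g := fun _ => econt w (N ⧸ L)) (fun C hC =>
      (econt_congr (quotientEquivOfIsCompl L C (Finset.mem_filter.1 hC).2) w).symm),
    Finset.sum_const, nsmul_eq_mul, ← Fintype.card_subtype, ← Nat.card_eq_fintype_card]
  haveI : Nontrivial N := L.mkQ_surjective.nontrivial
  have hLp : Prim f L := ⟨1, fun x => by
    rw [pow_one]; exact Subtype.ext (hL.smul_eq_zero x.2)⟩
  haveI : Nontrivial L := nontrivial_iff_ne_bot.2 hL.ne_bot
  by_cases hg : ∃ g : F[X], g.Monic ∧ Irreducible g ∧ Prim g (N ⧸ L)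
  swap
  · rw [econt_zero w (M := N ⧸ L) (fun g h1 h2 h3 => hg ⟨g, h1, h2, h3⟩), mul_zero, add_zero,
      econt_zero w (M := N) (fun g h1 h2 h3 => hg ⟨g, h1, h2, h3.map L.mkQ L.mkQ_surjective⟩)]
  obtain ⟨g, hgm, hgi, hgp⟩ := hg
  by_cases hgf : g = f
  · subst hgf
    have hN : Prim g N := by
      obtain ⟨n, hn⟩ := hgp
      refine ⟨n + 1, fun x => ?_⟩
      rw [pow_succ', mul_smul]
      refine hL.smul_eq_zero ((Submodule.Quotient.mk_eq_zero L).1 ?_)
      rw [Submodule.Quotient.mk_smul]
      exact hn _
    rw [econt_eq w hgm hgi hN, econt_eq w hgm hgi hgp]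
    set Q := Nat.card F ^ g.natDegree with hQ
    have hQ1 : 1 < Q := one_lt_qdeg hgi
    by_cases hc : ∃ C : Submodule F[X] N, IsCompl L C
    · obtain ⟨C, hC⟩ := hc
      have hk : kfun g N = kfun g (N ⧸ L) + 1 := by
        have h := card_ann_of_isCompl hL hC
        rw [← card_ann_congr (quotientEquivOfIsCompl L C hC) g, card_ann_eq hgm hgi,
          card_ann_eq hgm hgi, hL.card_eq hgi hgm, ← hQ, ← pow_succ'] at h
        exact Nat.pow_right_injective hQ1 h
      rw [card_compl hgm hgi hL hC, card_ann_eq hgm hgi, ← hQ, hk,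
        phi_succ Q (kfun_pos hgm hgi hgp)]
      push_cast [hQ]
      ring
    · haveI : IsEmpty {D : Submodule F[X] N // IsCompl L D} := ⟨fun D => hc ⟨D.1, D.2⟩⟩
      rw [Nat.card_of_isEmpty, Nat.cast_zero, zero_mul, add_zero]
      have h := card_ann_of_le (L := L) (f := g) (fun x hx => by
        by_contra hy
        exact hc (hL.exists_isCompl hgi ⟨x, hx, fun y h => hy ⟨y, h⟩⟩))
      rw [card_ann_eq hgm hgi, card_ann_eq hgm hgi, ← hQ] at h
      rw [Nat.pow_right_injective hQ1 h]
  · have hN : ∀ h : F[X], h.Monic → Irreducible h → ¬ Prim h N := by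
      intro h h1 h2 h3
      have e1 := Prim.unique ⟨h1, h2⟩ ⟨hgm, hgi⟩ (h3.map L.mkQ L.mkQ_surjective) hgp
      have e2 := Prim.unique ⟨h1, h2⟩ ⟨hf, hfi⟩ (h3.comap L.subtype L.injective_subtype) hLp
      exact hgf (e1 ▸ e2)
    rw [econt_zero w hN, zero_add]
    obtain ⟨n, hn⟩ := hgp
    have hcop : IsCoprime f (g ^ n) := (hfi.coprime_iff_not_dvd.2 fun h =>
      hgf (eq_of_monic_of_associated hf hgm (hfi.associated_of_dvd hgi h)).symm).pow_right
    obtain ⟨a, b, hab⟩ := hcop
    have hdec : ∀ x : N, x = (a * f) • x + (b * g ^ n) • x := fun x => by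
      rw [← add_smul, hab, one_smul]
    have hC : IsCompl L (ann (g ^ n) N) := by
      refine ⟨disjoint_def.2 fun x hx hy => ?_, codisjoint_iff.2 (eq_top_iff.2 fun x _ => ?_)⟩
      · rw [hdec x, mul_smul, mul_smul, hL.smul_eq_zero hx, (mem_torsionBy_iff _ _).1 hy,
          smul_zero, smul_zero, add_zero]
      · have hgx : g ^ n • x ∈ L := (Submodule.Quotient.mk_eq_zero L).1 (by
          rw [Submodule.Quotient.mk_smul]; exact hn _)
        rw [hdec x, add_comm]
        refine add_mem (mem_sup_left ?_) (mem_sup_right ?_)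
        · rw [mul_smul]; exact L.smul_mem b hgx
        · rw [mem_torsionBy_iff, smul_smul, show g ^ n * (a * f) = a * (f * g ^ n) by ring,
            mul_smul, mul_smul, hL.smul_eq_zero hgx, smul_zero]
    have h1 : Nat.card (ann f (N ⧸ L)) = 1 := by
      haveI : Subsingleton (ann f (N ⧸ L)) := by
        refine ⟨fun x y => ?_⟩
        suffices h : ∀ z : ann f (N ⧸ L), (z : N ⧸ L) = 0 from Subtype.ext ((h x).trans (h y).symm)
        intro z
        rw [← one_smul F[X] (z : N ⧸ L), ← hab, add_smul, mul_smul, mul_smul, hn,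
          (mem_torsionBy_iff _ _).1 z.2, smul_zero, smul_zero, add_zero]
      exact Nat.card_of_subsingleton 0
    rw [card_compl hf hfi hL hC, h1, Nat.cast_one, one_mul]

end Fibre

section Charpoly

theorem charpoly_eq_mul {V : Type*} [AddCommGroup V] [Module F V] [Module.Finite F V]
    (W : Submodule F V) (e : V →ₗ[F] V) (he : W ≤ W.comap e) :
    e.charpoly = (e.restrict he).charpoly * (W.mapQ W e he).charpoly := by
  classical
  let m := Module.Free.ChooseBasisIndex F W
  let bW : Module.Basis m F W := Module.Free.chooseBasis F W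
  let n := Module.Free.ChooseBasisIndex F (V ⧸ W)
  let bQ : Module.Basis n F (V ⧸ W) := Module.Free.chooseBasis F (V ⧸ W)
  let b := Module.Basis.sumQuot bW bQ
  let A : Matrix m m F := LinearMap.toMatrix bW bW (e.restrict he)
  let B : Matrix m n F := Matrix.of fun i l ↦
    ((Module.Basis.sumQuot bW bQ).repr (e ((Module.Basis.sumQuot bW bQ) (Sum.inr l)))) (Sum.inl i)
  let D : Matrix n n F := LinearMap.toMatrix bQ bQ (W.mapQ W e he)
  suffices LinearMap.toMatrix b b e = Matrix.fromBlocks A B 0 D by
    rw [← LinearMap.charpoly_toMatrix e b, this, ← LinearMap.charpoly_toMatrix _ bW,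
      ← LinearMap.charpoly_toMatrix _ bQ, Matrix.charpoly_fromBlocks_zero₂₁]
  ext u v
  cases u with
  | inl i =>
    cases v with
    | inl k =>
      simp only [b, Module.Basis.sumQuot_inl, Matrix.fromBlocks_apply₁₁, A,
        LinearMap.toMatrix_apply]
      apply Module.Basis.sumQuot_repr_inl_of_mem
    | inr l => simp [b, LinearMap.toMatrix_apply, Matrix.fromBlocks_apply₁₂, B]
  | inr j =>
    cases v with
    | inl k =>
      suffices W.mkQ (e (bW k)) = 0 by simp [LinearMap.toMatrix_apply, b, this]
      rw [← LinearMap.mem_ker, Submodule.ker_mkQ]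
      exact he (Submodule.coe_mem (bW k))
    | inr l =>
      simp only [LinearMap.toMatrix_apply, Module.Basis.sumQuot_repr_inr,
        Matrix.fromBlocks_apply₂₂, b, D]
      rw [← Module.Basis.sumQuot_inr bW bQ l, W.mapQ_apply]
      simp

variable (M : Type u) [AddCommGroup M] [Module F M] [Module F[X] M] [IsScalarTower F F[X] M]

variable (F) in
/-- Multiplication by `X`. -/
def xop : M →ₗ[F] M where
  toFun x := (X : F[X]) • x
  map_add' x y := smul_add _ x y
  map_smul' c x := smul_comm _ c x

theorem smul_eq_aeval (p : F[X]) (x : M) : p • x = aeval (xop F M) p x := by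
  induction p using Polynomial.induction_on generalizing x with
  | C a =>
    rw [aeval_C, Module.algebraMap_end_apply, ← algebraMap_eq, algebraMap_smul]
  | add p q hp hq => rw [add_smul, map_add, LinearMap.add_apply, hp, hq]
  | monomial n a h =>
    rw [pow_succ, ← mul_assoc, mul_smul, h]
    simp only [map_mul, aeval_X, Module.End.mul_apply]
    rfl

instance finite_quotient_poly {M : Type*} [AddCommGroup M] [Module F[X] M] [Finite M]
    (L : Submodule F[X] M) : Finite (M ⧸ L) := Finite.of_surjective _ L.mkQ_surjective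

variable [Finite M]

variable (F) in
/-- The characteristic polynomial of `X`. -/
def charR : F[X] := (xop F M).charpoly

theorem charR_monic : (charR F M).Monic := LinearMap.charpoly_monic _

theorem charR_congr {N : Type*} [AddCommGroup N] [Module F N] [Module F[X] N]
    [IsScalarTower F F[X] N] [Finite N] (e : M ≃ₗ[F[X]] N) : charR F M = charR F N := by
  rw [charR, charR, ← LinearEquiv.charpoly_conj (e.restrictScalars F) (xop F M)]
  congr 1
  refine LinearMap.ext fun y => ?_
  show e ((X : F[X]) • e.symm y) = (X : F[X]) • y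
  rw [map_smul, e.apply_symm_apply]

theorem charR_exact (L : Submodule F[X] M) :
    charR F M = charR F L * charR F (M ⧸ L) := by
  haveI : Finite (M ⧸ L) := Finite.of_surjective _ L.mkQ_surjective
  rw [charR, charpoly_eq_mul (L.restrictScalars F) (xop F M) fun x hx => L.smul_mem _ hx, charR,
    charR]
  congr 1

theorem charR_subsingleton [Subsingleton M] : charR F M = 1 :=
  eq_one_of_monic_natDegree_zero (charR_monic M) (by
    rw [charR, LinearMap.charpoly_natDegree, Module.finrank_zero_of_subsingleton])

theorem charR_line {f : F[X]} {L : Submodule F[X] M} (hf : f.Monic) (hfi : Irreducible f)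
    (hL : IsLine f L) : charR F L = f := by
  have hc := hL.card_eq hfi hf
  rw [Module.natCard_eq_pow_finrank (K := F)] at hc
  have hd : Module.finrank F L = f.natDegree := Nat.pow_right_injective Finite.one_lt_card hc
  have hle := hfi
  obtain ⟨x, hx, hfx, hLx⟩ := hL
  have hmem : charR F L ∈ Ideal.torsionOf F[X] M x := by
    rw [Ideal.mem_torsionOf_iff]
    have h := smul_eq_aeval L (charR F L) ⟨x, hLx ▸ mem_span_singleton_self x⟩
    rw [charR, LinearMap.aeval_self_charpoly, LinearMap.zero_apply] at h
    exact congrArg Subtype.val h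
  rw [torsionOf_eq hle hx hfx, Ideal.mem_span_singleton] at hmem
  refine Polynomial.eq_of_monic_of_dvd_of_natDegree_le hf (charR_monic L) hmem ?_
  rw [charR, LinearMap.charpoly_natDegree, hd]

/-- **The identity**: the weights of all submodules add up to the value on `charR`. -/
theorem sum_econt (w : F[X] → ℂ) (hw : ∀ P Q : F[X], P.Monic → Q.Monic → w (P * Q) = w P + w Q)
    [Fintype (Submodule F[X] M)] :
    ∑ W : Submodule F[X] M, econt w W = w (charR F M) := by
  classical
  obtain ⟨n, hn⟩ : ∃ n, Nat.card M = n := ⟨_, rfl⟩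
  rename_i instF instT instFin instFt
  induction n using Nat.strong_induction_on generalizing M with
  | _ n ih =>
  rcases subsingleton_or_nontrivial M with hs | hs
  · have h1 : w 1 = 0 := by
      have := hw 1 1 monic_one monic_one
      rw [mul_one] at this
      exact left_eq_add.1 this
    rw [charR_subsingleton, h1]
    exact Finset.sum_eq_zero fun W _ => econt_subsingleton w
  obtain ⟨f, L, hf, hfi, hL⟩ := exists_isLine (F := F) (M := M)
  haveI : Finite (M ⧸ L) := Finite.of_surjective _ L.mkQ_surjective
  letI := Fintype.ofFinite (Submodule F[X] (M ⧸ L))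
  have hlt : Nat.card (M ⧸ L) < n := by
    rw [← hn, card_eq_card_quotient_mul_card L, hL.card_eq hfi hf]
    exact lt_mul_of_one_lt_left Nat.card_pos (one_lt_qdeg hfi)
  rw [← Finset.sum_fiberwise (g := fun W : Submodule F[X] M => W.map L.mkQ)
    (f := fun W : Submodule F[X] M => econt w W) Finset.univ,
    ← Finset.sum_erase_add _ _ (Finset.mem_univ (⊥ : Submodule F[X] (M ⧸ L)))]
  have hbot : ∑ W ∈ Finset.univ.filter (fun W : Submodule F[X] M => W.map L.mkQ = ⊥),
      econt w W = w f := by
    rw [show Finset.univ.filter (fun W : Submodule F[X] M => W.map L.mkQ = ⊥) = {⊥, L} from ?_,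
      Finset.sum_pair hL.ne_bot.symm, econt_subsingleton w, zero_add]
    · haveI : Nontrivial L := nontrivial_iff_ne_bot.2 hL.ne_bot
      have hp : Prim f L := ⟨1, fun x => by rw [pow_one]; exact Subtype.ext (hL.smul_eq_zero x.2)⟩
      have hk : kfun f L = 1 := by
        have h : Nat.card (ann f L) = Nat.card F ^ f.natDegree := by
          rw [show ann f L = ⊤ from eq_top_iff.2 fun x _ =>
              (mem_torsionBy_iff _ _).2 (Subtype.ext (hL.smul_eq_zero x.2)),
            Nat.card_congr topEquiv.toEquiv, hL.card_eq hfi hf]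
        rw [card_ann_eq hf hfi] at h
        exact Nat.pow_right_injective (one_lt_qdeg hfi) (h.trans (pow_one _).symm)
      rw [econt_eq w hf hfi hp, hk, phi_one, mul_one]
    · ext W
      simp only [Finset.mem_filter, Finset.mem_univ, true_and, Finset.mem_insert,
        Finset.mem_singleton, ← le_bot_iff, map_le_iff_le_comap, comap_bot, ker_mkQ]
      constructor
      · intro h
        rcases hL.le_or_inf_eq_bot hfi W with h1 | h1
        · exact Or.inr (le_antisymm h h1)
        · exact Or.inl (by rw [← h1, inf_eq_left.2 h])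
      · rintro (h | rfl)
        · exact (le_bot_iff.2 (le_bot_iff.1 h)).trans bot_le
        · exact le_rfl
  have hrest : ∀ B ∈ (Finset.univ : Finset (Submodule F[X] (M ⧸ L))).erase ⊥,
      ∑ W ∈ Finset.univ.filter (fun W : Submodule F[X] M => W.map L.mkQ = B), econt w W =
      econt w B := by
    intro B hB
    have hB0 : B ≠ ⊥ := (Finset.mem_erase.1 hB).1
    set N := B.comap L.mkQ with hN
    have hLN : L ≤ N := fun x hx => by
      rw [hN, mem_comap, mkQ_apply, (Submodule.Quotient.mk_eq_zero L).2 hx]; exact B.zero_mem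
    set L' := L.comap N.subtype with hL'
    have hL'line : IsLine f L' := by
      obtain ⟨x, hx, hfx, hLx⟩ := hL
      have hxN : x ∈ N := hLN (hLx ▸ mem_span_singleton_self x)
      refine ⟨⟨x, hxN⟩, fun h => hx (congrArg Subtype.val h), Subtype.ext hfx, ?_⟩
      ext ⟨y, hy⟩
      rw [hL', mem_comap, hLx, mem_span_singleton, mem_span_singleton]
      exact exists_congr fun r => ⟨fun h => Subtype.ext h, fun h => congrArg Subtype.val h⟩
    let g : N →ₗ[F[X]] B := (L.mkQ.comp N.subtype).codRestrict B fun x => x.2
    have hg : Function.Surjective g := by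
      rintro ⟨b, hb⟩
      obtain ⟨x, rfl⟩ := L.mkQ_surjective b
      exact ⟨⟨x, hb⟩, rfl⟩
    have hker : LinearMap.ker g = L' := by
      ext x
      rw [LinearMap.mem_ker, hL', mem_comap, ← Submodule.Quotient.mk_eq_zero L]
      exact ⟨fun h => congrArg Subtype.val h, fun h => Subtype.ext h⟩
    let e : (N ⧸ L') ≃ₗ[F[X]] B :=
      (quotEquivOfEq _ _ hker.symm).trans (g.quotKerEquivOfSurjective hg)
    haveI : Nontrivial B := nontrivial_iff_ne_bot.2 hB0
    haveI : Nontrivial (N ⧸ L') := e.toEquiv.nontrivial
    letI := Fintype.ofFinite (Submodule F[X] N)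
    rw [← econt_congr e w, ← econt_fibre w hf hfi hL'line]
    have hmap : ∀ W : Submodule F[X] N, W ⊔ L' = ⊤ ↔ (W.map N.subtype).map L.mkQ = B := by
      intro W
      have h1 : (W.map N.subtype).map L.mkQ = (W.map g).map B.subtype := by
        rw [← Submodule.map_comp, ← Submodule.map_comp]; rfl
      rw [h1, ← hker, ← Submodule.comap_map_eq]
      constructor
      · intro h
        have : W.map g = ⊤ := by
          rw [← Submodule.map_comap_eq_of_surjective hg (W.map g), h, Submodule.map_top,
            LinearMap.range_eq_top.2 hg]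
        rw [this, map_subtype_top]
      · intro h
        have : W.map g = ⊤ := map_injective_of_injective B.injective_subtype
          (by rw [h, map_subtype_top])
        rw [this, comap_top]
    refine (Finset.sum_bij (fun (W : Submodule F[X] N) _ => W.map N.subtype) ?_ ?_ ?_ ?_).symm
    · intro W hW
      exact Finset.mem_filter.2 ⟨Finset.mem_univ _, (hmap W).1 (Finset.mem_filter.1 hW).2⟩
    · intro W _ W' _ h
      exact map_injective_of_injective N.injective_subtype h
    · intro W hW
      have hWB := (Finset.mem_filter.1 hW).2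
      have hWN : W ≤ N := fun x hx => by
        rw [hN, mem_comap, ← hWB]; exact mem_map_of_mem hx
      have hm : (W.comap N.subtype).map N.subtype = W := by
        rw [map_comap_subtype, inf_eq_right.2 hWN]
      exact ⟨W.comap N.subtype, Finset.mem_filter.2 ⟨Finset.mem_univ _, (hmap _).2 (by
        rw [hm]; exact hWB)⟩, hm⟩
    · intro W _
      exact econt_congr (equivSubtypeMap N W) w
  rw [hbot, Finset.sum_congr rfl hrest]
  have hih := ih _ hlt (M ⧸ L) rfl
  rw [← Finset.sum_erase_add _ _ (Finset.mem_univ (⊥ : Submodule F[X] (M ⧸ L))),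
    econt_subsingleton w, add_zero] at hih
  rw [hih, charR_exact M L, charR_line M hf hfi hL, hw _ _ hf (charR_monic _), add_comm]

end Charpoly

end Cfsg.Agent.Cuspidal
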