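import Mathlib

/-!
# Finite modules over a polynomial ring: simple submodules and complements
-/

set_option autoImplicit false
set_option linter.unusedSectionVars false
set_option linter.style.haveILetI false

namespace Cfsg.Agent.Cuspidal

open Polynomial Submodule

variable {F : Type*} [Field F]

/-- A simple submodule with annihilator generated by `f`. -/
def IsLine {M : Type*} [AddCommGroup M] [Module F[X] M] (f : F[X]) (L : Submodule F[X] M) :
    Prop :=
  ∃ x : M, x ≠ 0 ∧ f • x = 0 ∧ L = F[X] ∙ x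

variable {M : Type*} [AddCommGroup M] [Module F[X] M] {f : F[X]} {L : Submodule F[X] M}

theorem IsLine.smul_eq_zero (h : IsLine f L) {y : M} (hy : y ∈ L) : f • y = 0 := by
  obtain ⟨x, -, hfx, rfl⟩ := h
  obtain ⟨r, rfl⟩ := mem_span_singleton.1 hy
  rw [smul_comm, hfx, smul_zero]

theorem IsLine.ne_bot (h : IsLine f L) : L ≠ ⊥ := by
  obtain ⟨x, hx, -, rfl⟩ := h
  simpa using hx

theorem IsLine.le_or_inf_eq_bot (h : IsLine f L) (hf : Irreducible f) (W : Submodule F[X] M) :
    L ≤ W ∨ W ⊓ L = ⊥ := by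
  obtain ⟨x, hx, hfx, rfl⟩ := h
  by_cases hb : W ⊓ (F[X] ∙ x) = ⊥
  · exact Or.inr hb
  obtain ⟨y, hy, hy0⟩ := Submodule.exists_mem_ne_zero_of_ne_bot hb
  obtain ⟨r, rfl⟩ := mem_span_singleton.1 hy.2
  rcases hf.coprime_iff_not_dvd.2 (fun hd : f ∣ r => hy0 (by
    obtain ⟨c, rfl⟩ := hd
    rw [mul_comm, mul_smul, hfx, smul_zero])) with ⟨a, b, hab⟩
  refine Or.inl ((span_singleton_le_iff_mem _ _).2 ?_)
  have : x = b • r • x := by
    conv_lhs => rw [← one_smul F[X] x, ← hab, add_smul, mul_smul, hfx, smul_zero, zero_add,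
      mul_smul]
  rw [this]
  exact W.smul_mem b hy.1

theorem exists_isLine [Finite M] [Nontrivial M] :
    ∃ (f : F[X]) (L : Submodule F[X] M), f.Monic ∧ Irreducible f ∧ IsLine f L := by
  classical
  obtain ⟨x, hx⟩ := exists_ne (0 : M)
  obtain ⟨g, hg⟩ := IsPrincipalIdealRing.principal (Ideal.torsionOf F[X] M x)
  have hgx : g • x = 0 := (Ideal.mem_torsionOf_iff x g).1 (hg ▸ mem_span_singleton_self g)
  have hg0 : g ≠ 0 := by
    intro h0
    obtain ⟨a, b, hab, hab'⟩ := Finite.exists_ne_map_eq_of_infinite (fun p : F[X] => p • x)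
    have : a - b ∈ Ideal.torsionOf F[X] M x := by
      rw [Ideal.mem_torsionOf_iff, sub_smul]
      exact sub_eq_zero.2 hab'
    rw [hg, h0, Submodule.span_zero_singleton, mem_bot, sub_eq_zero] at this
    exact hab this
  have hgu : ¬ IsUnit g := by
    intro hu
    obtain ⟨u, rfl⟩ := hu
    exact hx ((smul_eq_zero_iff_eq u).1 hgx)
  obtain ⟨f, hfi, h, rfl⟩ := WfDvdMonoid.exists_irreducible_factor hgu hg0
  have hfn := normalize_associated f
  refine ⟨normalize f, F[X] ∙ (h • x), monic_normalize hfi.ne_zero, hfn.symm.irreducible hfi,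
    h • x, ?_, ?_, rfl⟩
  · intro h0
    have : h ∈ Ideal.torsionOf F[X] M x := (Ideal.mem_torsionOf_iff x h).2 h0
    rw [hg] at this
    obtain ⟨c, hc⟩ := mem_span_singleton.1 this
    rw [smul_eq_mul] at hc
    have h1 : h * (1 - c * f) = 0 := by linear_combination -hc
    rcases mul_eq_zero.1 h1 with h2 | h2
    · exact hg0 (by rw [h2, mul_zero])
    · exact hfi.not_isUnit (IsUnit.of_mul_eq_one c (by linear_combination -h2))
  · obtain ⟨u, hu⟩ := hfn.symm
    rw [← hu, smul_smul, mul_right_comm, mul_comm, mul_smul, hgx, smul_zero]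

theorem IsLine.exists_isCompl (hL : IsLine f L) (hf : Irreducible f) [Finite M]
    (h : ∃ x ∈ L, ∀ y : M, f • y ≠ x) : ∃ C : Submodule F[X] M, IsCompl L C := by
  classical
  let P : Submodule F[X] M := LinearMap.range (f • LinearMap.id)
  have hP : ¬ L ≤ P := by
    obtain ⟨x, hx, hy⟩ := h
    exact fun hle => (hle hx).elim fun y hy' => hy y (by simpa using hy')
  obtain ⟨C, ⟨hPC, hLC⟩, hmax⟩ :=
    (Set.toFinite {C : Submodule F[X] M | P ≤ C ∧ ¬ L ≤ C}).exists_maximalFor id _ ⟨P, le_rfl, hP⟩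
  have hinf : C ⊓ L = ⊥ := (hL.le_or_inf_eq_bot hf C).resolve_left hLC
  refine ⟨C, ⟨disjoint_iff.2 (by rw [inf_comm]; exact hinf), codisjoint_iff.2 (eq_top_iff.2 ?_)⟩⟩
  intro x _
  by_contra hx
  have hLC' : L ≤ C ⊔ (F[X] ∙ x) := by
    by_contra hn
    have := hmax (show (C ⊔ (F[X] ∙ x)) ∈ {C : Submodule F[X] M | P ≤ C ∧ ¬ L ≤ C} from
      ⟨hPC.trans le_sup_left, hn⟩) le_sup_left
    exact hx (le_sup_right (b := C) (this (le_sup_right (a := C) (mem_span_singleton_self x))))
  obtain ⟨l, hl, hl0⟩ := Submodule.exists_mem_ne_zero_of_ne_bot hL.ne_bot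
  obtain ⟨c, hc, z, hz, hcz⟩ := Submodule.mem_sup.1 (hLC' hl)
  obtain ⟨r, rfl⟩ := mem_span_singleton.1 hz
  by_cases hd : f ∣ r
  · obtain ⟨k, rfl⟩ := hd
    have : l ∈ C ⊓ L := ⟨by
      rw [← hcz]
      exact C.add_mem hc (hPC ⟨k • x, by rw [LinearMap.smul_apply, LinearMap.id_apply, mul_smul]⟩), hl⟩
    rw [hinf, mem_bot] at this
    exact hl0 this
  · obtain ⟨a, b, hab⟩ := hf.coprime_iff_not_dvd.2 hd
    apply hx
    have hx' : x = (a * f) • x + b • (l - c) := by
      rw [← hcz, add_sub_cancel_left, ← mul_smul, ← add_smul, hab, one_smul]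
    rw [hx']
    refine add_mem (le_sup_right (a := L) (hPC ⟨a • x, ?_⟩))
      (smul_mem _ b (sub_mem (le_sup_left (b := C) hl) (le_sup_right (a := L) hc)))
    rw [LinearMap.smul_apply, LinearMap.id_apply, smul_smul, mul_comm]

theorem card_quotient (hf : f.Monic) [Finite F] :
    Nat.card (F[X] ⧸ Ideal.span {f}) = Nat.card F ^ f.natDegree := by
  let e := (AdjoinRoot.powerBasis' hf).basis
  haveI : Module.Finite F (AdjoinRoot f) := Module.Finite.of_basis e
  show Nat.card (AdjoinRoot f) = _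
  rw [Module.natCard_eq_pow_finrank (K := F), Module.finrank_eq_card_basis e, Fintype.card_fin,
    AdjoinRoot.powerBasis'_dim]

theorem torsionOf_eq {x : M} (hf : Irreducible f) (hx : x ≠ 0) (hfx : f • x = 0) :
    Ideal.torsionOf F[X] M x = Ideal.span {f} := by
  refine ((PrincipalIdealRing.isMaximal_of_irreducible hf).eq_of_le ?_ ?_).symm
  · rw [Ne, Ideal.torsionOf_eq_top_iff]; exact hx
  · rw [span_singleton_le_iff_mem, Ideal.mem_torsionOf_iff]; exact hfx

theorem IsLine.card_eq [Finite F] (hL : IsLine f L) (hf : Irreducible f) (hfm : f.Monic) :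
    Nat.card L = Nat.card F ^ f.natDegree := by
  obtain ⟨x, hx, hfx, rfl⟩ := hL
  rw [← Nat.card_congr (Ideal.quotTorsionOfEquivSpanSingleton F[X] M x).toEquiv,
    torsionOf_eq hf hx hfx, card_quotient hfm]

theorem card_hom_line {B : Type*} [AddCommGroup B] [Module F[X] B] (hL : IsLine f L)
    (hf : Irreducible f) (hB : ∀ b : B, f • b = 0) :
    Nat.card (L →ₗ[F[X]] B) = Nat.card B := by
  obtain ⟨x, hx, hfx, rfl⟩ := hL
  refine Nat.card_congr (Equiv.ofBijective
    (fun φ => φ ⟨x, mem_span_singleton_self x⟩) ⟨fun φ ψ h => ?_, fun b => ?_⟩)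
  · refine LinearMap.ext fun ⟨y, hy⟩ => ?_
    obtain ⟨r, rfl⟩ := mem_span_singleton.1 hy
    have e : (⟨r • x, hy⟩ : ↥(F[X] ∙ x)) = r • ⟨x, mem_span_singleton_self x⟩ := rfl
    rw [e, map_smul, map_smul]
    exact congrArg _ h
  · have hker : Ideal.torsionOf F[X] M x ≤ LinearMap.ker (LinearMap.toSpanSingleton F[X] B b) := by
      rw [torsionOf_eq hf hx hfx, span_singleton_le_iff_mem, LinearMap.mem_ker,
        LinearMap.toSpanSingleton_apply]
      exact hB b
    refine ⟨(Submodule.liftQ _ _ hker).comp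
      (Ideal.quotTorsionOfEquivSpanSingleton F[X] M x).symm.toLinearMap, ?_⟩
    have e : (Ideal.quotTorsionOfEquivSpanSingleton F[X] M x).symm ⟨x, mem_span_singleton_self x⟩ =
        Submodule.Quotient.mk 1 := by
      rw [LinearEquiv.symm_apply_eq]
      exact Subtype.ext (by rw [Ideal.quotTorsionOfEquivSpanSingleton_apply_mk]; exact (one_smul _ x).symm)
    simp only [LinearMap.comp_apply, LinearEquiv.coe_coe, e, Submodule.liftQ_apply,
      LinearMap.toSpanSingleton_apply, one_smul]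

end Cfsg.Agent.Cuspidal
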