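import Cfsg.Agent.Cuspidal.Lift

/-!
# Frobenius orbits in a finite field and lifted sums over them
-/

set_option autoImplicit false
set_option linter.unusedSectionVars false
set_option linter.style.haveILetI false

noncomputable section

namespace Cfsg.Agent.Cuspidal

open Polynomial
open scoped ComplexConjugate

variable {F : Type*} [Field F] [Finite F] {K : Type*} [Field K] [Finite K] [Algebra F K]

theorem frob_injective (i : ℕ) : Function.Injective fun x : K => x ^ Nat.card F ^ i := by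
  letI := Fintype.ofFinite F
  have h := (((FiniteField.frobeniusAlgHom F K) ^ i : K →ₐ[F] K) : K →+* K).injective
  intro x y hxy
  refine h ?_
  change ((FiniteField.frobeniusAlgHom F K) ^ i : K →ₐ[F] K) x = _
  simp only [AlgHom.coe_pow, FiniteField.coe_frobeniusAlgHom, pow_iterate, RingHom.coe_coe,
    ← Nat.card_eq_fintype_card]
  exact hxy

theorem isIntegral_fin (x : K) : IsIntegral F x :=
  haveI : Module.Finite F K := Module.Finite.of_finite
  Algebra.IsIntegral.isIntegral x

theorem natDegree_dvd_of_pow_eq {x : K} {n : ℕ} (h : x ^ Nat.card F ^ n = x) :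
    (minpoly F x).natDegree ∣ n :=
  (minpoly.irreducible (isIntegral_fin x)).natDegree_dvd_of_dvd_X_pow_card_pow_sub_X
    (minpoly.dvd F x (by simp [h]))

theorem pow_eq_of_natDegree_dvd {x : K} {n : ℕ} (h : (minpoly F x).natDegree ∣ n) :
    x ^ Nat.card F ^ n = x := by
  have h1 := (minpoly.irreducible (isIntegral_fin (F := F) x)).natDegree_dvd_iff_dvd_X_pow_card_pow_sub_X.1 h
  obtain ⟨c, hc⟩ := h1
  have := congrArg (aeval x) hc
  simpa [sub_eq_zero] using this

theorem roots_minpoly (x : K) :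
    ((minpoly F x).map (algebraMap F K)).roots =
      (Multiset.range (minpoly F x).natDegree).map fun j => x ^ Nat.card F ^ j := by
  letI := Fintype.ofFinite F
  haveI : Module.Finite F K := Module.Finite.of_finite
  set d := (minpoly F x).natDegree with hd
  have hne : (minpoly F x).map (algebraMap F K) ≠ 0 :=
    ((minpoly.monic (isIntegral_fin x)).map _).ne_zero
  have hnd : ((Multiset.range d).map fun j => x ^ Nat.card F ^ j).Nodup := by
    refine Multiset.Nodup.map_on ?_ (Multiset.nodup_range d)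
    intro i hi j hj hij
    rw [Multiset.mem_range] at hi hj
    have key : ∀ a b : ℕ, a ≤ b → b < d → x ^ Nat.card F ^ a = x ^ Nat.card F ^ b → a = b := by
      intro a b hab hb h
      obtain ⟨c, rfl⟩ := Nat.exists_eq_add_of_le hab
      rw [add_comm a c, pow_add, pow_mul] at h
      have h2 : d ∣ c := natDegree_dvd_of_pow_eq (frob_injective (F := F) a h).symm
      rcases Nat.eq_zero_or_pos c with rfl | hc
      · rfl
      · exact absurd (Nat.le_of_dvd hc h2) (by omega)
    rcases le_total i j with h | h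
    · exact key i j h hj hij
    · exact (key j i h hi hij.symm).symm
  refine (Multiset.eq_of_le_of_card_le ((Multiset.le_iff_subset hnd).2 fun y hy => ?_) ?_).symm
  · obtain ⟨j, -, rfl⟩ := Multiset.mem_map.1 hy
    rw [mem_roots hne, IsRoot.def, eval_map_algebraMap]
    have h := aeval_algHom_apply ((FiniteField.frobeniusAlgHom F K) ^ j) x (minpoly F x)
    rw [minpoly.aeval, map_zero, AlgHom.coe_pow, FiniteField.coe_frobeniusAlgHom, pow_iterate,
      ← Nat.card_eq_fintype_card] at h
    exact h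
  · rw [Multiset.card_map, Multiset.card_range, hd,
      ← natDegree_map (algebraMap F K) (p := minpoly F x)]
    exact card_roots' _

theorem exists_minpoly_eq {f : F[X]} (hf : f.Monic) (hfi : Irreducible f)
    (h : f.natDegree ∣ Module.finrank F K) : ∃ x : K, minpoly F x = f := by
  letI := Fintype.ofFinite K
  have h1 := hfi.natDegree_dvd_iff_dvd_X_pow_card_pow_sub_X.1 h
  rw [← Module.natCard_eq_pow_finrank (K := F) (V := K), Nat.card_eq_fintype_card] at h1
  have hs : ((X ^ Fintype.card K - X : F[X]).map (algebraMap F K)).Splits :=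
    (FiniteField.isSplittingField_sub K F).splits
  have hne : (X ^ Fintype.card K - X : F[X]).map (algebraMap F K) ≠ 0 :=
    map_ne_zero (FiniteField.X_pow_card_sub_X_ne_zero F Fintype.one_lt_card)
  obtain ⟨x, hx⟩ := Splits.exists_eval_eq_zero (hs.of_dvd hne (map_dvd (algebraMap F K) h1))
    (by rw [degree_map]; exact (degree_pos_of_irreducible hfi).ne')
  exact ⟨x, (minpoly.eq_of_irreducible_of_monic hfi (by rwa [eval_map_algebraMap] at hx) hf).symm⟩

/-- The primary polynomial of degree `n` attached to `x`. -/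
def orbPoly (F : Type*) [Field F] {K : Type*} [Field K] [Algebra F K] (n : ℕ) (x : K) : F[X] :=
  minpoly F x ^ (n / (minpoly F x).natDegree)

/-- The lifted sum over the Frobenius orbit. -/
def orbSum (F : Type*) (θ : K →* ℂ) (n : ℕ) (x : K) : ℂ :=
  ∑ j ∈ Finset.range n, θ (x ^ Nat.card F ^ j)

theorem liftW_orbPoly (θ : K →* ℂ) {n : ℕ} {x : K} (hx : x ^ Nat.card F ^ n = x) :
    liftW θ (orbPoly F n x) = orbSum F θ n x := by
  set d := (minpoly F x).natDegree with hd
  have hdn : d ∣ n := natDegree_dvd_of_pow_eq hx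
  have hper : ∀ i j, x ^ Nat.card F ^ (i * d + j) = x ^ Nat.card F ^ j := by
    intro i j
    rw [pow_add, pow_mul, pow_eq_of_natDegree_dvd (F := F) (dvd_mul_left d i)]
  obtain ⟨N, hN⟩ := hdn
  have hd0 : 0 < d := minpoly.natDegree_pos (isIntegral_fin x)
  rw [orbPoly, ← hd, hN, Nat.mul_div_cancel_left _ hd0, orbSum]
  rw [liftW, Polynomial.map_pow, rsum, roots_pow, Multiset.map_nsmul, Multiset.sum_nsmul,
    roots_minpoly, Multiset.map_map, ← hd]
  clear hN
  induction N with
  | zero => simp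
  | succ N ih =>
    rw [Nat.mul_succ, Finset.sum_range_add, ← ih, succ_nsmul]
    congr 1
    rw [Finset.sum_congr rfl (g := fun j => θ (x ^ Nat.card F ^ j)) (fun j _ => by
      rw [mul_comm d N, hper])]
    rfl

theorem conj_pow_of_primitive {ζ : ℂ} {M : ℕ} (hζ : IsPrimitiveRoot ζ M) (hM : M ≠ 0) :
    conj ζ = ζ⁻¹ :=
  (Complex.inv_eq_conj (Complex.norm_eq_one_of_pow_eq_one hζ.pow_eq_one hM)).symm

/-- Orthogonality of the powers of a root of unity. -/
theorem sum_pow_mul_conj {ζ : ℂ} {M : ℕ} (hζ : IsPrimitiveRoot ζ M) (hM : 0 < M) (a b : ℕ) :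
    ∑ k ∈ Finset.range M, (ζ ^ a) ^ k * conj ((ζ ^ b) ^ k) =
      if a % M = b % M then (M : ℂ) else 0 := by
  have hζ0 := hζ.ne_zero hM.ne'
  have hstep : ∀ k : ℕ, (ζ ^ a) ^ k * conj ((ζ ^ b) ^ k) = (ζ ^ a * (ζ ^ b)⁻¹) ^ k := by
    intro k
    rw [map_pow, map_pow, conj_pow_of_primitive hζ hM.ne', ← inv_pow, mul_pow]
  rw [Finset.sum_congr rfl fun k _ => hstep k]
  have hpow : (ζ ^ a * (ζ ^ b)⁻¹) ^ M = 1 := by
    rw [mul_pow, inv_pow, ← pow_mul, ← pow_mul, mul_comm a, mul_comm b, pow_mul, pow_mul,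
      hζ.pow_eq_one, one_pow, one_pow, inv_one, mul_one]
  by_cases h : a % M = b % M
  · have : ζ ^ a * (ζ ^ b)⁻¹ = 1 := by
      rw [← Nat.div_add_mod a M, ← Nat.div_add_mod b M, pow_add, pow_add, pow_mul, pow_mul,
        hζ.pow_eq_one, one_pow, one_pow, one_mul, one_mul, h,
        mul_inv_cancel₀ (pow_ne_zero _ hζ0)]
    rw [if_pos h, this]
    simp
  · have : ζ ^ a * (ζ ^ b)⁻¹ ≠ 1 := by
      intro h1
      have h2 : ζ ^ a = ζ ^ b := by
        rwa [← div_eq_mul_inv, div_eq_one_iff_eq (pow_ne_zero _ hζ0)] at h1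
      rw [← Nat.div_add_mod a M, ← Nat.div_add_mod b M, pow_add, pow_add, pow_mul, pow_mul,
        hζ.pow_eq_one, one_pow, one_pow, one_mul, one_mul] at h2
      exact h (hζ.pow_inj (Nat.mod_lt _ hM) (Nat.mod_lt _ hM) h2)
    rw [if_neg h, geom_sum_eq this, hpow, sub_self, zero_div]

/-- **The norm of the lifted orbit sum.** -/
theorem sum_theta_orbSum (θ : K →* ℂ) (hθ : Function.Injective θ) {n : ℕ} (hn : 2 ≤ n) {ξ : K}
    (hξ : IsPrimitiveRoot ξ (Nat.card F ^ n - 1)) :
    ∑ k ∈ Finset.range (Nat.card F ^ n - 1), θ (ξ ^ k) * conj (orbSum F θ n (ξ ^ k)) =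
      ((Nat.card F ^ n - 1 : ℕ) : ℂ) := by
  set q := Nat.card F with hq
  have hq1 : 1 < q := Finite.one_lt_card
  set M := q ^ n - 1 with hM
  have hMpos : 0 < M := by have := Nat.one_lt_pow (show n ≠ 0 by omega) hq1; omega
  have hζ : IsPrimitiveRoot (θ ξ) M := hξ.map_of_injective hθ
  simp only [orbSum, map_sum, Finset.mul_sum, ← hq]
  rw [Finset.sum_comm, Finset.sum_congr rfl (g := fun j => if j = 0 then (M : ℂ) else 0)
    fun j hj => ?_, Finset.sum_ite_eq' (Finset.range n) 0, if_pos (Finset.mem_range.2 (by omega))]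
  rw [Finset.sum_congr rfl (g := fun k => ((θ ξ) ^ 1) ^ k * conj (((θ ξ) ^ q ^ j) ^ k))
    (fun k _ => by rw [pow_one, map_pow θ, map_pow θ, map_pow θ, ← pow_mul, ← pow_mul,
      mul_comm k]), sum_pow_mul_conj hζ hMpos]
  have hjn := Finset.mem_range.1 hj
  rcases Nat.eq_zero_or_pos j with rfl | hj0
  · simp
  · have h1 : q ^ j ≤ q ^ (n - 1) := Nat.pow_le_pow_right (by omega) (by omega)
    have h2 : q ^ n = q ^ (n - 1) * q := by rw [← pow_succ, Nat.sub_add_cancel (by omega)]
    have h3 : 1 < q ^ j := Nat.one_lt_pow hj0.ne' hq1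
    have h5 : q ^ (n - 1) * 2 ≤ q ^ (n - 1) * q := Nat.mul_le_mul_left _ hq1
    have h6 : q ^ j < M := by omega
    rw [if_neg hj0.ne', if_neg]
    rw [Nat.mod_eq_of_lt h6, Nat.mod_eq_of_lt (h3.trans h6)]
    omega

end Cfsg.Agent.Cuspidal
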