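import Cfsg.Agent.Cuspidal.Group
import Cfsg.Agent.Cuspidal.Roots

/-!
# Cyclic endomorphisms and the norm of the weight
-/

set_option autoImplicit false
set_option linter.unusedSectionVars false
set_option linter.style.haveILetI false

noncomputable section

namespace Cfsg.Agent.Cuspidal

open Polynomial Submodule
open scoped ComplexConjugate

universe u

variable {F : Type*} [Field F] [Finite F]
variable {V : Type u} [AddCommGroup V] [Module F V] [Finite V]

/-- Evaluation of polynomials at `g` applied to `v`. -/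
def pmap (g : Module.End F V) (v : V) : F[X] →ₗ[F] V :=
  (LinearMap.applyₗ v).comp (aeval g).toLinearMap

theorem pmap_apply (g : Module.End F V) (v : V) (p : F[X]) : pmap g v p = aeval g p v := rfl

/-- The cyclic subspace spanned by `v`. -/
def cyc (g : Module.End F V) (v : V) : Submodule F V := LinearMap.range (pmap g v)

theorem mem_cyc_self (g : Module.End F V) (v : V) : v ∈ cyc g v := ⟨1, by simp [pmap_apply]⟩

theorem cyc_le_comap (g : Module.End F V) (v : V) : cyc g v ≤ (cyc g v).comap g := by
  rintro _ ⟨p, rfl⟩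
  exact ⟨X * p, by simp [pmap_apply]⟩

theorem pmap_twist {g g' : Module.End F V} {W : Submodule F V} (hW : W ≤ W.comap g) {v : V}
    (hv : v ∈ W) (h : ∀ x ∈ W, g' x = g x) (p : F[X]) :
    aeval g' p v = aeval g p v ∧ aeval g p v ∈ W := by
  induction p using Polynomial.induction_on generalizing v with
  | C a => simp [Module.algebraMap_end_apply, W.smul_mem a hv]
  | add p r hp hr =>
    simp only [map_add, LinearMap.add_apply, (hp hv).1, (hr hv).1]
    exact ⟨trivial, W.add_mem (hp hv).2 (hr hv).2⟩
  | monomial k a ih =>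
    rw [pow_succ, ← mul_assoc]
    simp only [map_mul (aeval g') (C a * X ^ k) X, map_mul (aeval g) (C a * X ^ k) X, aeval_X,
      Module.End.mul_apply]
    rw [h v hv]
    exact ih (hW hv)

theorem charpoly_dvd_of_cyclic {g : Module.End F V} {v : V} (hg : cyc g v = ⊤) (p : F[X]) :
    aeval g p v = 0 ↔ g.charpoly ∣ p := by
  constructor
  · intro h
    by_contra hnd
    set P := g.charpoly with hP
    have hPm : P.Monic := LinearMap.charpoly_monic g
    set r := p %ₘ P with hr
    have hr0 : r ≠ 0 := fun h0 => hnd ((modByMonic_eq_zero_iff_dvd hPm).1 h0)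
    have hrv : aeval g r v = 0 := by
      have := congrArg (fun s : F[X] => aeval g s v) (modByMonic_add_div p P)
      simp only [map_add, map_mul, LinearMap.add_apply, Module.End.mul_apply, ← hr] at this
      rwa [hP, LinearMap.aeval_self_charpoly, LinearMap.zero_apply, add_zero, h] at this
    set r' := r * C r.leadingCoeff⁻¹ with hr'
    have hm : r'.Monic := monic_mul_leadingCoeff_inv hr0
    have hr'v : aeval g r' v = 0 := by
      rw [hr', mul_comm, map_mul, Module.End.mul_apply, hrv, map_zero]
    have hdeg : r'.natDegree < Module.finrank F V := by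
      rw [hr', natDegree_mul_leadingCoeff_inv _ hr0, ← LinearMap.charpoly_natDegree g, ← hP]
      refine natDegree_modByMonic_lt p hPm fun h1 => ?_
      exact hnd (h1 ▸ one_dvd p)
    have hsurj : Function.Surjective
        ((pmap g v).comp (degreeLT F r'.natDegree).subtype) := by
      intro y
      obtain ⟨s, rfl⟩ := (LinearMap.range_eq_top.1 hg) y
      have h2 : s %ₘ r' ∈ degreeLT F r'.natDegree := mem_degreeLT.2
        ((degree_modByMonic_lt s hm).trans_eq (degree_eq_natDegree hm.ne_zero))
      refine ⟨⟨_, h2⟩, ?_⟩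
      show aeval g (s %ₘ r') v = aeval g s v
      conv_rhs => rw [← modByMonic_add_div s r', mul_comm r']
      rw [map_add, map_mul, LinearMap.add_apply, Module.End.mul_apply, hr'v, map_zero, add_zero]
    haveI : Module.Finite F (degreeLT F r'.natDegree) :=
      Module.Finite.equiv (degreeLTEquiv F r'.natDegree).symm
    have hfr := LinearMap.finrank_le_finrank_of_surjective hsurj
    rw [(degreeLTEquiv F r'.natDegree).finrank_eq, Module.finrank_fin_fun] at hfr
    omega
  · rintro ⟨s, rfl⟩
    rw [map_mul, LinearMap.aeval_self_charpoly, zero_mul, LinearMap.zero_apply]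

theorem exists_aut_apply {v₁ v₂ : V} (h1 : v₁ ≠ 0) (h2 : v₂ ≠ 0) :
    ∃ x : Aut F V, (x : Module.End F V) v₁ = v₂ := by
  obtain ⟨x, hx⟩ := exists_aut_map (W := F ∙ v₁) (W' := F ∙ v₂)
    (by rw [finrank_span_singleton h1, finrank_span_singleton h2])
  have hmem : (x : Module.End F V) v₁ ∈ (F ∙ v₂) :=
    hx ▸ mem_map_of_mem (mem_span_singleton_self v₁)
  obtain ⟨c, hc⟩ := mem_span_singleton.1 hmem
  have hc0 : c ≠ 0 := fun h0 => h1 (aut_injective x (by rw [← hc, h0, zero_smul, map_zero]))
  have hu : IsUnit (c⁻¹ • (x : Module.End F V)) := by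
    rw [Module.End.isUnit_iff]
    refine Finite.injective_iff_bijective.1 fun a b hab => ?_
    exact aut_injective x ((smul_right_injective V (inv_ne_zero hc0)) hab)
  refine ⟨hu.unit, ?_⟩
  rw [IsUnit.unit_spec, LinearMap.smul_apply, ← hc, inv_smul_smul₀ hc0]

open Classical in
theorem card_fix [Fintype (Aut F V)] {v : V} (hv : v ≠ 0) :
    (Finset.univ.filter fun x : Aut F V => (x : Module.End F V) v = v).card *
      (Nat.card F ^ Module.finrank F V - 1) = Fintype.card (Aut F V) := by
  letI := Fintype.ofFinite V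
  have hfib : ∀ w ∈ (Finset.univ : Finset V).erase 0,
      (Finset.univ.filter fun x : Aut F V => (x : Module.End F V) v = w).card =
        (Finset.univ.filter fun x : Aut F V => (x : Module.End F V) v = v).card := by
    intro w hw
    obtain ⟨x, hx⟩ := exists_aut_apply (F := F) hv (Finset.mem_erase.1 hw).1
    refine Finset.card_equiv (Equiv.mulLeft x⁻¹) fun y => ?_
    simp only [Finset.mem_filter, Finset.mem_univ, true_and, Equiv.coe_mulLeft, Units.val_mul,
      Module.End.mul_apply]
    constructor
    · intro h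
      rw [h, ← hx, ← Module.End.mul_apply, Units.inv_mul, Module.End.one_apply]
    · intro h
      rw [← hx]
      conv_rhs => rw [← h]
      rw [← Module.End.mul_apply, Units.mul_inv, Module.End.one_apply]
  have hsum := Finset.card_eq_sum_card_fiberwise (s := (Finset.univ : Finset (Aut F V)))
    (f := fun x : Aut F V => (x : Module.End F V) v) (t := (Finset.univ : Finset V).erase 0)
    (fun x _ => Finset.mem_erase.2
      ⟨fun h => hv (aut_injective x (h.trans (map_zero _).symm)), Finset.mem_univ _⟩)
  rw [Finset.sum_congr rfl hfib, Finset.sum_const, Finset.card_erase_of_mem (Finset.mem_univ _),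
    Finset.card_univ, Finset.card_univ, smul_eq_mul] at hsum
  rw [← Module.natCard_eq_pow_finrank (K := F) (V := V), Nat.card_eq_fintype_card, hsum, mul_comm]

/-- Every polynomial with non-zero constant term is realised by a cyclic automorphism. -/
theorem exists_cyclic {v : V} (hv : v ≠ 0) {P : F[X]} (hP : P.Monic)
    (hdeg : P.natDegree = Module.finrank F V) (h0 : P.coeff 0 ≠ 0) :
    ∃ g : Aut F V, cyc (g : Module.End F V) v = ⊤ ∧ ((g : Module.End F V)).charpoly = P := by
  set pb := AdjoinRoot.powerBasis hP.ne_zero with hpb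
  haveI : Module.Finite F (AdjoinRoot P) := pb.finite
  have hfr : Module.finrank F (AdjoinRoot P) = Module.finrank F V := by
    rw [pb.finrank, AdjoinRoot.powerBasis_dim, hdeg]
  haveI : Nontrivial (AdjoinRoot P) := by
    refine Module.nontrivial_of_finrank_pos (R := F) ?_
    rw [hfr]
    haveI : Nontrivial V := ⟨⟨v, 0, hv⟩⟩
    exact Module.finrank_pos
  let e' : AdjoinRoot P ≃ₗ[F] V := LinearEquiv.ofFinrankEq _ _ hfr
  have h10 : e' 1 ≠ 0 := fun h => one_ne_zero (e'.map_eq_zero_iff.1 h)
  obtain ⟨x, hx⟩ := exists_aut_apply (F := F) h10 hv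
  let e : AdjoinRoot P ≃ₗ[F] V :=
    e'.trans (LinearMap.GeneralLinearGroup.generalLinearEquiv F V x)
  have he1 : e 1 = v := hx
  let g : Module.End F V := e.conj (LinearMap.mulLeft F (AdjoinRoot.root P))
  have hpow : ∀ p : F[X], aeval g p v = e (AdjoinRoot.mk P p) := by
    intro p
    rw [← he1]
    induction p using Polynomial.induction_on with
    | C a =>
      rw [aeval_C, Module.algebraMap_end_apply, ← map_smul, AdjoinRoot.mk_C,
        ← AdjoinRoot.algebraMap_eq, Algebra.algebraMap_eq_smul_one]
    | add p r hp hr => simp only [map_add, LinearMap.add_apply, hp, hr]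
    | monomial k a ih =>
      rw [pow_succ', ← mul_assoc, mul_comm (C a) X, mul_assoc, map_mul (aeval g), aeval_X,
        Module.End.mul_apply, ih, map_mul (AdjoinRoot.mk P) X, AdjoinRoot.mk_X]
      simp [g, LinearEquiv.conj_apply]
  have hcyc : cyc g v = ⊤ := by
    refine eq_top_iff.2 fun y _ => ?_
    obtain ⟨p, hp⟩ := AdjoinRoot.mk_surjective (e.symm y)
    exact ⟨p, by rw [pmap_apply, hpow, hp, e.apply_symm_apply]⟩
  have hchar : g.charpoly = P := by
    refine eq_of_monic_of_associated (LinearMap.charpoly_monic g) hP (associated_of_dvd_dvd ?_ ?_)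
    · rw [← charpoly_dvd_of_cyclic hcyc, hpow, AdjoinRoot.mk_self, map_zero]
    · rw [← AdjoinRoot.mk_eq_zero]
      apply e.injective
      rw [map_zero, ← hpow, charpoly_dvd_of_cyclic hcyc]
  have hu : IsUnit g := by
    rw [LinearMap.isUnit_iff_isUnit_det, isUnit_iff_ne_zero, LinearMap.det_eq_sign_charpoly_coeff,
      hchar]
    exact mul_ne_zero (pow_ne_zero _ (neg_ne_zero.2 one_ne_zero)) h0
  exact ⟨hu.unit, by rw [IsUnit.unit_spec]; exact hcyc, by rw [IsUnit.unit_spec]; exact hchar⟩

open Classical in
/-- The cyclic automorphisms with given characteristic polynomial. -/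
theorem card_cyclic [Fintype (Aut F V)] {v : V} {P : F[X]} {g₀ : Aut F V}
    (hg₀ : cyc (g₀ : Module.End F V) v = ⊤) (hP₀ : ((g₀ : Module.End F V)).charpoly = P) :
    (Finset.univ.filter fun g : Aut F V =>
        cyc (g : Module.End F V) v = ⊤ ∧ ((g : Module.End F V)).charpoly = P).card =
      (Finset.univ.filter fun x : Aut F V => (x : Module.End F V) v = v).card := by
  have hfix : ∀ x : Aut F V, (x : Module.End F V) v = v → ∀ p : F[X],
      aeval ((x * g₀ * x⁻¹ : Aut F V) : Module.End F V) p v =
        (x : Module.End F V) (aeval (g₀ : Module.End F V) p v) := by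
    intro x hx p
    induction p using Polynomial.induction_on with
    | C a => simp [Module.algebraMap_end_apply, hx]
    | add p r hp hr => simp only [map_add, LinearMap.add_apply, hp, hr]
    | monomial k a ih =>
      rw [pow_succ', ← mul_assoc, mul_comm (C a) X, mul_assoc X (C a) (X ^ k),
        map_mul (aeval ((x * g₀ * x⁻¹ : Aut F V) : Module.End F V)) X,
        map_mul (aeval (g₀ : Module.End F V)) X, aeval_X, aeval_X,
        Module.End.mul_apply, Module.End.mul_apply, ih]
      simp only [Units.val_mul, Module.End.mul_apply]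
      rw [← Module.End.mul_apply (↑x⁻¹ : Module.End F V) (↑x), Units.inv_mul, Module.End.one_apply]
  refine (Finset.card_bij (fun x _ => x * g₀ * x⁻¹) ?_ ?_ ?_).symm
  · intro x hx
    have hx' := (Finset.mem_filter.1 hx).2
    refine Finset.mem_filter.2 ⟨Finset.mem_univ _, eq_top_iff.2 fun y _ => ?_, ?_⟩
    · obtain ⟨p, hp⟩ := (LinearMap.range_eq_top.1 hg₀) ((↑x⁻¹ : Module.End F V) y)
      refine ⟨p, ?_⟩
      rw [pmap_apply, hfix x hx', ← pmap_apply, hp, ← Module.End.mul_apply, Units.mul_inv,
        Module.End.one_apply]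
    · rw [← hP₀, ← LinearEquiv.charpoly_conj
        (LinearMap.GeneralLinearGroup.generalLinearEquiv F V x) (g₀ : Module.End F V)]
      rfl
  · intro x hx y hy hxy
    have hx' := (Finset.mem_filter.1 hx).2
    have hy' := (Finset.mem_filter.1 hy).2
    refine Units.ext (LinearMap.ext fun z => ?_)
    obtain ⟨p, rfl⟩ := (LinearMap.range_eq_top.1 hg₀) z
    rw [pmap_apply, ← hfix x hx', ← hfix y hy', hxy]
  · intro g hg
    obtain ⟨hgc, hgP⟩ := (Finset.mem_filter.1 hg).2
    have hker : LinearMap.ker (pmap (g₀ : Module.End F V) v) =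
        LinearMap.ker (pmap (g : Module.End F V) v) := by
      ext p
      simp only [LinearMap.mem_ker, pmap_apply, charpoly_dvd_of_cyclic hg₀,
        charpoly_dvd_of_cyclic hgc, hP₀, hgP]
    let e : V ≃ₗ[F] V :=
      ((pmap (g₀ : Module.End F V) v).quotKerEquivOfSurjective
        (LinearMap.range_eq_top.1 hg₀)).symm.trans
        ((quotEquivOfEq _ _ hker).trans ((pmap (g : Module.End F V) v).quotKerEquivOfSurjective
          (LinearMap.range_eq_top.1 hgc)))
    have he : ∀ p : F[X], e (aeval (g₀ : Module.End F V) p v) = aeval (g : Module.End F V) p v := by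
      intro p
      have h1 : ((pmap (g₀ : Module.End F V) v).quotKerEquivOfSurjective
          (LinearMap.range_eq_top.1 hg₀)).symm (aeval (g₀ : Module.End F V) p v) =
          Submodule.Quotient.mk p := by
        rw [LinearEquiv.symm_apply_eq]; rfl
      simp only [e, LinearEquiv.trans_apply, h1]
      rfl
    refine ⟨(LinearMap.GeneralLinearGroup.generalLinearEquiv F V).symm e,
      Finset.mem_filter.2 ⟨Finset.mem_univ _, ?_⟩, ?_⟩
    · change e v = v
      simpa using he 1
    · rw [mul_inv_eq_iff_eq_mul]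
      refine Units.ext (LinearMap.ext fun z => ?_)
      obtain ⟨p, rfl⟩ := (LinearMap.range_eq_top.1 hg₀) z
      simp only [Units.val_mul, Module.End.mul_apply, pmap_apply]
      change e ((g₀ : Module.End F V) (aeval (g₀ : Module.End F V) p v)) =
        (g : Module.End F V) (e (aeval (g₀ : Module.End F V) p v))
      rw [he]
      have h2 := he (X * p)
      rw [map_mul (aeval (g₀ : Module.End F V)) X p, map_mul (aeval (g : Module.End F V)) X p,
        aeval_X, aeval_X, Module.End.mul_apply, Module.End.mul_apply] at h2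
      exact h2

theorem ev_of_cyclic_primary (w : F[X] → ℂ) {g : Module.End F V} {v : V} (hv : v ≠ 0)
    (hg : cyc g v = ⊤) {f : F[X]} (hf : f.Monic) (hfi : Irreducible f) {N : ℕ}
    (hN : g.charpoly = f ^ N) : ev w g = w f := by
  set o := Module.AEval'.of g with ho
  have hsmul : ∀ (p : F[X]) (x : V), p • o x = o (aeval g p x) := fun p x =>
    (Module.AEval.of_aeval_smul (R := F) g p x).symm
  haveI : Nontrivial V := ⟨⟨v, 0, hv⟩⟩
  haveI : Nontrivial (Module.AEval' g) := o.toEquiv.symm.nontrivial
  have hprim : Prim f (Module.AEval' g) := ⟨N, fun x => by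
    obtain ⟨y, rfl⟩ := o.surjective x
    rw [hsmul, ← hN, LinearMap.aeval_self_charpoly, LinearMap.zero_apply, map_zero]⟩
  have hker : ∀ p : F[X], p • o v = 0 ↔ f ^ N ∣ p := fun p => by
    rw [hsmul, LinearEquiv.map_eq_zero_iff, charpoly_dvd_of_cyclic hg, hN]
  have hN0 : N ≠ 0 := by
    rintro rfl
    have := LinearMap.charpoly_natDegree g
    rw [hN, pow_zero, natDegree_one] at this
    exact (Module.finrank_pos (R := F) (M := V)).ne this
  obtain ⟨N, rfl⟩ := Nat.exists_eq_succ_of_ne_zero hN0
  set x0 := f ^ N • o v with hx0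
  have hx0ne : x0 ≠ 0 := fun h => by
    have := (hker _).1 h
    rw [pow_dvd_pow_iff hfi.ne_zero hfi.not_isUnit] at this
    omega
  have hfx : f • x0 = 0 := by
    rw [hx0, smul_smul, ← pow_succ']
    exact (hker _).2 dvd_rfl
  have hann : ann f (Module.AEval' g) = span F[X] {x0} := by
    refine le_antisymm (fun x hx => ?_)
      ((span_singleton_le_iff_mem _ _).2 ((mem_torsionBy_iff _ _).2 hfx))
    obtain ⟨y, rfl⟩ := o.surjective x
    obtain ⟨p, rfl⟩ := (LinearMap.range_eq_top.1 hg) y
    rw [mem_torsionBy_iff, pmap_apply, ← hsmul, smul_smul, hker, pow_succ',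
      mul_dvd_mul_iff_left hfi.ne_zero] at hx
    obtain ⟨s, rfl⟩ := hx
    rw [pmap_apply, ← hsmul, mul_comm, mul_smul, ← hx0]
    exact smul_mem _ s (mem_span_singleton_self x0)
  have hk : kfun f (Module.AEval' g) = 1 := by
    have hline : IsLine f (span F[X] {x0}) := isLine_span hx0ne hfx
    rw [kfun, hann, hline.card_eq hfi hf, ← Nat.pow_one (Nat.card F ^ f.natDegree),
      Nat.pow_one (Nat.card F ^ f.natDegree)]
    simpa using Nat.log_pow (one_lt_qdeg (F := F) hfi) 1
  rw [ev, econt_eq w hf hfi hprim, hk, phi_one, mul_one]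

theorem ev_of_cyclic_not_primary (w : F[X] → ℂ) {g : Module.End F V} {v : V}
    (hg : cyc g v = ⊤)
    (h : ∀ (f : F[X]) (N : ℕ), f.Monic → Irreducible f → g.charpoly ≠ f ^ N) : ev w g = 0 := by
  refine econt_zero w fun f hf hfi ⟨k, hk⟩ => ?_
  set o := Module.AEval'.of g
  have h1 := hk (o v)
  rw [← Module.AEval.of_aeval_smul (R := F) g (f ^ k) v] at h1
  have h2 : g.charpoly ∣ f ^ k :=
    (charpoly_dvd_of_cyclic hg _).1 (o.map_eq_zero_iff.1 h1)
  obtain ⟨i, -, hi⟩ := (dvd_prime_pow hfi.prime k).1 h2
  exact h f i hf hfi (eq_of_monic_of_associated (LinearMap.charpoly_monic g) (hf.pow i) hi)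

variable {K : Type*} [Field K] [Finite K] [Algebra F K]

open Classical in
/-- On cyclic automorphisms the weight is a sum of `θ` over the matching field elements. -/
theorem ev_cyclic_eq (θ : K →* ℂ) {n : ℕ} (hV : Module.finrank F V = n)
    (hnK : n ∣ Module.finrank F K) {ξ : K} (hξ : IsPrimitiveRoot ξ (Nat.card F ^ n - 1))
    {g : Aut F V} {v : V} (hv : v ≠ 0) (hg : cyc (g : Module.End F V) v = ⊤) :
    ev (liftW θ) (g : Module.End F V) =
      ∑ k ∈ (Finset.range (Nat.card F ^ n - 1)).filter
        (fun k => orbPoly F n (ξ ^ k) = ((g : Module.End F V)).charpoly), θ (ξ ^ k) := by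
  haveI : Nontrivial V := ⟨⟨v, 0, hv⟩⟩
  have hn0 : n ≠ 0 := hV ▸ (Module.finrank_pos (R := F) (M := V)).ne'
  set M := Nat.card F ^ n - 1 with hM
  have hMpos : 0 < M := by
    have := Nat.one_lt_pow hn0 (Finite.one_lt_card (α := F)); omega
  haveI : NeZero M := ⟨hMpos.ne'⟩
  set P := ((g : Module.End F V)).charpoly with hP
  have hPdeg : P.natDegree = n := by rw [hP, LinearMap.charpoly_natDegree, hV]
  by_cases hprim : ∃ (f : F[X]) (N : ℕ), f.Monic ∧ Irreducible f ∧ P = f ^ N
  swap
  · rw [ev_of_cyclic_not_primary _ hg fun f N h1 h2 h3 => hprim ⟨f, N, h1, h2, h3⟩]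
    refine (Finset.sum_eq_zero fun k hk => absurd ?_ hprim).symm
    exact ⟨_, _, minpoly.monic (isIntegral_fin _), minpoly.irreducible (isIntegral_fin _),
      (Finset.mem_filter.1 hk).2.symm⟩
  obtain ⟨f, N, hf, hfi, hfN⟩ := hprim
  rw [ev_of_cyclic_primary _ hv hg hf hfi hfN]
  have hdeg : f.natDegree * N = n := by rw [mul_comm, ← natDegree_pow, ← hfN, hPdeg]
  obtain ⟨x, hx⟩ := exists_minpoly_eq (K := K) hf hfi ((Dvd.intro N hdeg).trans hnK)
  have hN0 : N ≠ 0 := by rintro rfl; rw [mul_zero] at hdeg; exact hn0 hdeg.symm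
  have hcoeff : f.coeff 0 ≠ 0 := by
    intro h0
    have hdet : LinearMap.det (g : Module.End F V) ≠ 0 :=
      isUnit_iff_ne_zero.1 ((LinearMap.isUnit_iff_isUnit_det _).1 g.isUnit)
    rw [LinearMap.det_eq_sign_charpoly_coeff, ← hP, hfN, coeff_zero_eq_eval_zero, eval_pow,
      ← coeff_zero_eq_eval_zero, h0, zero_pow hN0, mul_zero] at hdet
    exact hdet rfl
  set T := (Finset.range M).filter fun k => orbPoly F n (ξ ^ k) = P with hT
  have hset : T.image (fun k => ξ ^ k) = ((f.map (algebraMap F K)).roots).toFinset := by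
    ext y
    simp only [Finset.mem_image, Multiset.mem_toFinset, hT, Finset.mem_filter, Finset.mem_range]
    rw [mem_roots (map_ne_zero hf.ne_zero), IsRoot.def, eval_map_algebraMap]
    constructor
    · rintro ⟨k, ⟨-, hk⟩, rfl⟩
      have h1 : aeval (ξ ^ k) (f ^ N) = 0 := by
        rw [← hfN, ← hk, orbPoly, map_pow, minpoly.aeval, zero_pow]
        have hdn : (minpoly F (ξ ^ k)).natDegree ∣ n := natDegree_dvd_of_pow_eq (by
          rw [← pow_mul, mul_comm, pow_mul]
          congr 1
          rw [← Nat.sub_add_cancel (Nat.one_le_pow n _ Nat.card_pos), pow_succ, ← hM,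
            hξ.pow_eq_one, one_mul])
        exact (Nat.div_pos (Nat.le_of_dvd (Nat.pos_of_ne_zero hn0) hdn)
          (minpoly.natDegree_pos (isIntegral_fin _))).ne'
      rw [map_pow] at h1
      exact (pow_eq_zero_iff hN0).1 h1
    · intro hy
      have hyf : minpoly F y = f := (minpoly.eq_of_irreducible_of_monic hfi hy hf).symm
      have hy0 : y ≠ 0 := by
        rintro rfl
        rw [← coeff_zero_eq_aeval_zero'] at hy
        exact hcoeff ((algebraMap F K).injective (hy.trans (map_zero _).symm))
      have hyn : y ^ Nat.card F ^ n = y :=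
        pow_eq_of_natDegree_dvd (F := F) (hyf.symm ▸ Dvd.intro N hdeg)
      have hyM : y ^ M = 1 := by
        have h2 : y ^ M * y = 1 * y := by
          rw [← pow_succ, one_mul, hM, Nat.sub_add_cancel (Nat.one_le_pow n _ Nat.card_pos), hyn]
        exact mul_right_cancel₀ hy0 h2
      obtain ⟨k, hk, rfl⟩ := hξ.eq_pow_of_pow_eq_one hyM
      refine ⟨k, ⟨hk, ?_⟩, rfl⟩
      rw [orbPoly, hyf, hfN, ← hdeg, Nat.mul_div_cancel_left _ hfi.natDegree_pos]
  have hsep : (f.map (algebraMap F K)).Separable := (PerfectField.separable_of_irreducible hfi).map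
  rw [liftW, rsum, ← Multiset.dedup_eq_self.2 (nodup_roots hsep)]
  change ∑ y ∈ ((f.map (algebraMap F K)).roots).toFinset, θ y = _
  rw [← hset,
    Finset.sum_image fun a ha b hb hab => hξ.pow_inj (Finset.mem_range.1 (Finset.mem_filter.1 ha).1)
      (Finset.mem_range.1 (Finset.mem_filter.1 hb).1) hab]

/-- **The norm is one.** -/
theorem classInner_ev [Fintype (Aut F V)] (θ : K →* ℂ) (hθ : Function.Injective θ) {n : ℕ}
    (hn : 2 ≤ n) (hV : Module.finrank F V = n) (hnK : n ∣ Module.finrank F K) {ξ : K}
    (hξ : IsPrimitiveRoot ξ (Nat.card F ^ n - 1)) :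
    classInner (fun g : Aut F V => ev (liftW θ) (g : Module.End F V))
      (fun g : Aut F V => ev (liftW θ) (g : Module.End F V)) = 1 := by
  classical
  letI := Fintype.ofFinite (Submodule F V)
  have hw : IsAdditive (liftW (F := F) θ) := liftW_mul θ
  set q := Nat.card F with hq
  set M := q ^ n - 1 with hM
  have hMpos : 0 < M := by
    have := Nat.one_lt_pow (show n ≠ 0 by omega) (show 1 < q from Finite.one_lt_card); omega
  haveI : Nontrivial V := Module.nontrivial_of_finrank_pos (R := F) (by omega)
  obtain ⟨v, hv⟩ := exists_ne (0 : V)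
  set e : Aut F V → ℂ := fun g => ev (liftW θ) (g : Module.End F V) with he
  set β : Aut F V → ℂ := fun g => liftW θ ((g : Module.End F V)).charpoly with hβ
  -- the proper subspaces do not contribute
  have h1 : ∑ g, e g * conj (e g) = ∑ g, e g * conj (β g) := by
    have hW : ∀ W : Submodule F V, W ≠ ⊤ →
        ∑ g : Aut F V, e g * conj (evOn (liftW θ) (g : Module.End F V) W) = 0 := by
      intro W hW
      rcases eq_or_ne W ⊥ with rfl | hW0
      · simp [evOn_bot]
      refine sum_ev_mul_eq_zero hw hW0 hW _ (fun g hg => by rw [evOn, dif_neg hg, map_zero]) ?_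
      intro g g' u hinv hg'
      rw [hg', evOn, evOn, dif_pos hinv, dif_pos (le_comap_twist hinv u)]
      congr 2
      exact LinearMap.ext fun x => Subtype.ext (twist_of_mem _ W u x.2)
    have hsum : ∀ g : Aut F V, β g = e g + ∑ W ∈ Finset.univ.erase (⊤ : Submodule F V),
        evOn (liftW θ) (g : Module.End F V) W := by
      intro g
      rw [hβ, he]
      simp only
      rw [← sum_evOn hw, ← Finset.add_sum_erase _ _ (Finset.mem_univ (⊤ : Submodule F V)),
        evOn_top]
    have hz : ∑ g, e g * conj (β g) = ∑ g, e g * conj (e g) +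
        ∑ W ∈ Finset.univ.erase (⊤ : Submodule F V),
          ∑ g : Aut F V, e g * conj (evOn (liftW θ) (g : Module.End F V) W) := by
      rw [Finset.sum_comm, ← Finset.sum_add_distrib]
      refine Finset.sum_congr rfl fun g _ => ?_
      rw [hsum, map_add, map_sum, mul_add, Finset.mul_sum]
    rw [hz, Finset.sum_eq_zero (s := Finset.univ.erase (⊤ : Submodule F V))
      fun W hW' => hW W (Finset.mem_erase.1 hW').1, add_zero]
  -- only cyclic elements contribute
  set Y := Finset.univ.filter fun g : Aut F V => cyc (g : Module.End F V) v = ⊤ with hY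
  have h2 : ∑ g, e g * conj (β g) = ∑ g ∈ Y, e g * conj (β g) := by
    rw [← Finset.sum_fiberwise Finset.univ (fun g : Aut F V => cyc (g : Module.End F V) v)
        (fun g => e g * conj (β g)),
      Finset.sum_eq_single (⊤ : Submodule F V) (fun W _ hW => ?_)
        (fun h => absurd (Finset.mem_univ _) h)]
    rcases eq_or_ne W ⊥ with rfl | hW0
    · refine Finset.sum_eq_zero fun g hg => absurd ?_ hv
      exact (mem_bot F).1 ((Finset.mem_filter.1 hg).2 ▸ mem_cyc_self (g : Module.End F V) v)
    have := sum_ev_mul_eq_zero hw hW0 hW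
      (fun g : Aut F V => if cyc (g : Module.End F V) v = W then conj (β g) else 0)
      (fun g hg => if_neg fun h => hg (by rw [← h]; exact cyc_le_comap _ v))
      (fun g g' u hinv hg' => by
        have hmem : v ∈ W → cyc (g' : Module.End F V) v = cyc (g : Module.End F V) v := by
          intro hv'
          rw [cyc, cyc]
          congr 1
          refine LinearMap.ext fun p => ?_
          rw [pmap_apply, pmap_apply, (pmap_twist hinv hv'
            (fun x hx => by rw [hg', twist_of_mem _ W u hx]) p).1]
        have hiff : cyc (g' : Module.End F V) v = W ↔ cyc (g : Module.End F V) v = W :=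
          ⟨fun h => by rw [← hmem (h ▸ mem_cyc_self _ v), h],
            fun h => by rw [hmem (h ▸ mem_cyc_self _ v), h]⟩
        have hchar : β g' = β g := by
          rw [hβ]
          simp only
          rw [hg', charpoly_twist hinv u, charpoly_eq_mul W _ hinv]
        by_cases h : cyc (g : Module.End F V) v = W
        · rw [if_pos h, if_pos (hiff.2 h), hchar]
        · rw [if_neg h, if_neg (hiff.not.2 h)])
    rw [Finset.sum_filter]
    refine Eq.trans (Finset.sum_congr rfl fun g _ => ?_) this
    rw [mul_ite, mul_zero]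
  -- evaluate over the field
  set D := (Finset.univ.filter fun x : Aut F V => (x : Module.End F V) v = v).card with hD
  have hdiv : ∀ k : ℕ, (ξ ^ k) ^ q ^ n = ξ ^ k := fun k => by
    rw [← pow_mul, mul_comm, pow_mul]
    congr 1
    rw [← Nat.sub_add_cancel (Nat.one_le_pow n q Nat.card_pos), pow_succ, ← hM, hξ.pow_eq_one,
      one_mul]
  have h3 : ∑ g ∈ Y, e g * conj (β g) = (D : ℂ) * (M : ℂ) := by
    rw [Finset.sum_congr rfl (g := fun g : Aut F V => ∑ k ∈ (Finset.range M).filter
      (fun k => orbPoly F n (ξ ^ k) = ((g : Module.End F V)).charpoly),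
        θ (ξ ^ k) * conj (orbSum F θ n (ξ ^ k))) fun g hg => ?_]
    · simp only [Finset.sum_filter]
      rw [Finset.sum_comm, ← sum_theta_orbSum θ hθ hn hξ, Finset.mul_sum]
      refine Finset.sum_congr rfl fun k _ => ?_
      rw [← Finset.sum_filter, Finset.sum_const, nsmul_eq_mul]
      congr 2
      have hint := isIntegral_fin (F := F) (ξ ^ k)
      have hdn := natDegree_dvd_of_pow_eq (hdiv k)
      obtain ⟨g₀, hg₀, hP₀⟩ := exists_cyclic hv (P := orbPoly F n (ξ ^ k))
        ((minpoly.monic hint).pow _)
        (by rw [orbPoly, natDegree_pow, hV, Nat.div_mul_cancel hdn])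
        (by
          rw [orbPoly, coeff_zero_eq_eval_zero, eval_pow, ← coeff_zero_eq_eval_zero]
          exact pow_ne_zero _ (minpoly.coeff_zero_ne_zero hint
            (pow_ne_zero _ (hξ.ne_zero hMpos.ne'))))
      rw [hD, ← card_cyclic hg₀ hP₀, hY, Finset.filter_filter]
      congr 1
      exact Finset.filter_congr fun g _ => and_congr_right fun _ => eq_comm
    · rw [he, hβ]
      simp only
      rw [ev_cyclic_eq θ hV hnK hξ hv (Finset.mem_filter.1 hg).2, Finset.sum_mul]
      refine Finset.sum_congr rfl fun k hk => ?_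
      rw [← (Finset.mem_filter.1 hk).2, liftW_orbPoly θ (hdiv k)]
  have hcard : (D : ℂ) * (M : ℂ) = (Nat.card (Aut F V) : ℂ) := by
    rw [← Nat.cast_mul, Nat.card_eq_fintype_card, ← card_fix hv, hV]
  rw [classInner, h1, h2, h3, hcard, inv_mul_cancel₀ (Nat.cast_ne_zero.2 Nat.card_pos.ne')]

/-- The degree. -/
theorem ev_one (θ : K →* ℂ) {n : ℕ} (hn : n ≠ 0) (hV : Module.finrank F V = n) :
    ev (liftW θ) ((1 : Aut F V) : Module.End F V) =
      ∏ i ∈ Finset.range (n - 1), (1 - (Nat.card F : ℂ) ^ (i + 1)) := by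
  haveI : Nontrivial V := Module.nontrivial_of_finrank_pos (R := F) (by omega)
  set o := Module.AEval'.of ((1 : Aut F V) : Module.End F V)
  haveI : Nontrivial (Module.AEval' ((1 : Aut F V) : Module.End F V)) := o.toEquiv.symm.nontrivial
  have hall : ∀ x : Module.AEval' ((1 : Aut F V) : Module.End F V), (X - C (1 : F)) • x = 0 := by
    intro x
    obtain ⟨y, rfl⟩ := o.surjective x
    rw [← Module.AEval.of_aeval_smul (R := F)]
    simp
  have hp : Prim (X - C (1 : F)) (Module.AEval' ((1 : Aut F V) : Module.End F V)) :=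
    ⟨1, fun x => by rw [pow_one]; exact hall x⟩
  have hk : kfun (X - C (1 : F)) (Module.AEval' ((1 : Aut F V) : Module.End F V)) = n := by
    have h : ann (X - C (1 : F)) (Module.AEval' ((1 : Aut F V) : Module.End F V)) = ⊤ :=
      eq_top_iff.2 fun x _ => (mem_torsionBy_iff _ _).2 (hall x)
    rw [kfun, h, Nat.card_congr (topEquiv.toEquiv.trans o.toEquiv.symm),
      Module.natCard_eq_pow_finrank (K := F) (V := V), hV, natDegree_X_sub_C, pow_one,
      Nat.log_pow Finite.one_lt_card]
  rw [ev, econt_eq _ (monic_X_sub_C 1) (irreducible_X_sub_C 1) hp, hk, natDegree_X_sub_C, pow_one,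
    liftW, Polynomial.map_sub, map_X, map_C, map_one, rsum, roots_X_sub_C, Multiset.map_singleton,
    Multiset.sum_singleton, map_one, one_mul, phi]

end Cfsg.Agent.Cuspidal
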