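import Cfsg.Agent.Cuspidal.Count

/-!
# The weight of a finite module over a polynomial ring
-/

set_option autoImplicit false
set_option linter.unusedSectionVars false
set_option linter.style.haveILetI false

noncomputable section

namespace Cfsg.Agent.Cuspidal

open Polynomial Submodule

universe u

variable {F : Type*} [Field F]

/-- Some power of `f` kills `M`. -/
def Prim (f : F[X]) (M : Type*) [AddCommGroup M] [Module F[X] M] : Prop :=
  ∃ n : ℕ, ∀ x : M, f ^ n • x = 0

/-- The number of cyclic summands of a primary module. -/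
def kfun (f : F[X]) (M : Type*) [AddCommGroup M] [Module F[X] M] : ℕ :=
  Nat.log (Nat.card F ^ f.natDegree) (Nat.card (ann f M))

/-- The product `(1 - Q) (1 - Q ^ 2) ⋯ (1 - Q ^ (k - 1))`. -/
def phi (Q k : ℕ) : ℂ := ∏ i ∈ Finset.range (k - 1), (1 - (Q : ℂ) ^ (i + 1))

open Classical in
/-- The weight of a module: zero unless it is primary and non-zero. -/
def econt (w : F[X] → ℂ) (M : Type*) [AddCommGroup M] [Module F[X] M] : ℂ :=
  if h : Nontrivial M ∧ ∃ f : F[X], f.Monic ∧ Irreducible f ∧ Prim f M then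
    w h.2.choose * phi (Nat.card F ^ h.2.choose.natDegree) (kfun h.2.choose M)
  else 0

variable {M : Type u} [AddCommGroup M] [Module F[X] M] {f g : F[X]}

theorem Prim.unique [Nontrivial M] (hf : f.Monic ∧ Irreducible f) (hg : g.Monic ∧ Irreducible g)
    (h1 : Prim f M) (h2 : Prim g M) : f = g := by
  by_contra hne
  obtain ⟨a, ha⟩ := h1
  obtain ⟨b, hb⟩ := h2
  obtain ⟨x, hx⟩ := exists_ne (0 : M)
  have hnd : ¬ f ∣ g := fun h => hne
    (eq_of_monic_of_associated hf.1 hg.1 (hf.2.associated_of_dvd hg.2 h))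
  obtain ⟨c, d, hcd⟩ := IsCoprime.pow (m := a) (n := b) (hf.2.coprime_iff_not_dvd.2 hnd)
  apply hx
  rw [← one_smul F[X] x, ← hcd, add_smul, mul_smul, mul_smul, ha, hb, smul_zero, smul_zero,
    add_zero]

theorem econt_eq [Nontrivial M] (w : F[X] → ℂ) (hf : f.Monic) (hfi : Irreducible f)
    (h : Prim f M) : econt w M = w f * phi (Nat.card F ^ f.natDegree) (kfun f M) := by
  have hex : Nontrivial M ∧ ∃ f : F[X], f.Monic ∧ Irreducible f ∧ Prim f M :=
    ⟨inferInstance, f, hf, hfi, h⟩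
  rw [econt, dif_pos hex,
    Prim.unique ⟨hex.2.choose_spec.1, hex.2.choose_spec.2.1⟩ ⟨hf, hfi⟩ hex.2.choose_spec.2.2 h]

theorem econt_zero (w : F[X] → ℂ) (h : ∀ f : F[X], f.Monic → Irreducible f → ¬ Prim f M) :
    econt w M = 0 := dif_neg fun ⟨_, f, hf, hfi, hp⟩ => h f hf hfi hp

theorem econt_subsingleton [Subsingleton M] (w : F[X] → ℂ) : econt w M = 0 :=
  dif_neg fun ⟨h, _⟩ => not_subsingleton M inferInstance

theorem Prim.map {N : Type*} [AddCommGroup N] [Module F[X] N] (φ : M →ₗ[F[X]] N)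
    (hφ : Function.Surjective φ) (h : Prim f M) : Prim f N := by
  obtain ⟨n, hn⟩ := h
  refine ⟨n, fun y => ?_⟩
  obtain ⟨x, rfl⟩ := hφ y
  rw [← map_smul, hn, map_zero]

theorem Prim.comap {N : Type*} [AddCommGroup N] [Module F[X] N] (φ : M →ₗ[F[X]] N)
    (hφ : Function.Injective φ) (h : Prim f N) : Prim f M := by
  obtain ⟨n, hn⟩ := h
  exact ⟨n, fun x => hφ (by rw [map_smul, hn, map_zero])⟩

theorem card_ann_congr {N : Type*} [AddCommGroup N] [Module F[X] N] (e : M ≃ₗ[F[X]] N) (f : F[X]) :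
    Nat.card (ann f M) = Nat.card (ann f N) := by
  refine Nat.card_congr (e.toEquiv.subtypeEquiv fun x => ?_)
  change x ∈ ann f M ↔ e x ∈ ann f N
  rw [mem_torsionBy_iff, mem_torsionBy_iff, ← map_smul, LinearEquiv.map_eq_zero_iff]

theorem econt_congr {N : Type*} [AddCommGroup N] [Module F[X] N] (e : M ≃ₗ[F[X]] N)
    (w : F[X] → ℂ) : econt w M = econt w N := by
  by_cases hM : Nontrivial M ∧ ∃ f : F[X], f.Monic ∧ Irreducible f ∧ Prim f M
  · haveI := hM.1
    haveI : Nontrivial N := e.symm.toEquiv.nontrivial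
    obtain ⟨f, hf, hfi, hp⟩ := hM.2
    rw [econt_eq w hf hfi hp, econt_eq w hf hfi (hp.map e.toLinearMap e.surjective), kfun, kfun,
      card_ann_congr e f]
  · have hN : ¬ (Nontrivial N ∧ ∃ f : F[X], f.Monic ∧ Irreducible f ∧ Prim f N) :=
      fun ⟨h1, f, hf, hfi, hp⟩ => hM ⟨e.toEquiv.nontrivial, f, hf, hfi,
        hp.map e.symm.toLinearMap e.symm.surjective⟩
    rw [econt, econt, dif_neg hM, dif_neg hN]

theorem phi_succ (Q : ℕ) {k : ℕ} (hk : 1 ≤ k) :
    phi Q (k + 1) = phi Q k * (1 - (Q : ℂ) ^ k) := by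
  obtain ⟨j, rfl⟩ := Nat.exists_eq_add_of_le hk
  simp only [phi, Nat.add_sub_cancel_left]
  rw [show 1 + j + 1 - 1 = j + 1 by omega, Finset.prod_range_succ, add_comm 1 j]

theorem phi_one (Q : ℕ) : phi Q 1 = 1 := by simp [phi]

section Finite

variable [Finite F] [Finite M]

theorem one_lt_qdeg (hfi : Irreducible f) : 1 < Nat.card F ^ f.natDegree :=
  Nat.one_lt_pow hfi.natDegree_pos.ne' Finite.one_lt_card

theorem card_ann_eq (hf : f.Monic) (hfi : Irreducible f) :
    Nat.card (ann f M) = (Nat.card F ^ f.natDegree) ^ kfun f M := by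
  obtain ⟨k, hk⟩ := exists_card_ann_eq_pow (M := M) hfi hf
  rw [kfun, hk, Nat.log_pow (one_lt_qdeg hfi)]

theorem kfun_pos (hf : f.Monic) (hfi : Irreducible f) [Nontrivial M] (h : Prim f M) :
    1 ≤ kfun f M := by
  classical
  obtain ⟨x, hx⟩ := exists_ne (0 : M)
  obtain ⟨n, hn⟩ := h
  have hne : ∃ j, f ^ j • x = 0 := ⟨n, hn x⟩
  have hj : Nat.find hne ≠ 0 := fun h0 => hx (by
    have := Nat.find_spec hne
    rwa [h0, pow_zero, one_smul] at this)
  obtain ⟨i, hi⟩ := Nat.exists_eq_succ_of_ne_zero hj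
  have hy : f ^ i • x ∈ ann f M := by
    rw [mem_torsionBy_iff, smul_smul, ← pow_succ']
    have := Nat.find_spec hne
    rwa [hi] at this
  haveI : Nontrivial (ann f M) :=
    ⟨⟨⟨_, hy⟩, 0, fun h0 => Nat.find_min hne (show i < Nat.find hne by omega)
      (congrArg Subtype.val h0)⟩⟩
  by_contra hk
  have := card_ann_eq (M := M) hf hfi
  rw [show kfun f M = 0 by omega, pow_zero] at this
  exact absurd this (Finite.one_lt_card).ne'

end Finite

end Cfsg.Agent.Cuspidal
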